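import Cfsg.Agent.Lib.H96.FrDef

set_option autoImplicit false

/-! Piece P12 of FRAMES (helper63 for helper96). -/

namespace H63.FrPhiAll

open Matrix H96.Fr

variable {ι F : Type*} [Fintype ι] [DecidableEq ι] [Field F] {K : Subgroup ((ι → F) ≃ₗ[F] (ι → F))}

theorem dot_e (x : ι → F) (i : ι) : x ⬝ᵥ e i = x i := by
  simp [e]

theorem e_dot_e (i : ι) : (e i : ι → F) ⬝ᵥ e i = 1 := by
  rw [dot_e]; simp [e]

theorem e_apply (i k : ι) : (e i : ι → F) k = if k = i then 1 else 0 := by
  by_cases h : k = i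
  · subst h; simp [e]
  · simp [e, h]

theorem rf_e_apply (i : ι) (x : ι → F) (k : ι) : rf (e i) x k = if k = i then - x k else x k := by
  rw [rf_apply (e_dot_e i), dot_e, Pi.sub_apply, Pi.smul_apply, e_apply, smul_eq_mul]
  split_ifs with h
  · subst h; ring
  · ring

theorem rf_rf {v : ι → F} (hv : v ⬝ᵥ v = 1) : rf v * rf v = 1 := by
  ext1 x
  rw [LinearEquiv.mul_apply, rf_apply hv, rf_apply hv]
  exact rfm_rfm hv x

theorem rf_e_mul {i j : ι} (h : i ≠ j) : rf (e i) * rf (e j) = (sg i j : (ι → F) ≃ₗ[F] (ι → F)) := by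
  ext1 x
  funext k
  rw [LinearEquiv.mul_apply, rf_e_apply, rf_e_apply, sg_apply]
  by_cases h1 : k = i
  · subst h1; simp [h]
  · simp [h1]

theorem conj_rf {g : (ι → F) ≃ₗ[F] (ι → F)} (hg : Iso g) {w : ι → F} (hw : w ⬝ᵥ w = 1) : g * rf w = rf (g w) * g := by
  ext1 x
  rw [LinearEquiv.mul_apply, LinearEquiv.mul_apply, rf_apply hw, rf_apply (by rw [hg]; exact hw), map_sub, map_smul, hg]

/-- elements of `K` stable under conjugation by coordinate reflections -/
def Good (K : Subgroup ((ι → F) ≃ₗ[F] (ι → F))) (g : (ι → F) ≃ₗ[F] (ι → F)) : Prop :=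
  g ∈ K ∧ ∀ i, rf (e i) * g * rf (e i) ∈ K

theorem Good.mul {g h : (ι → F) ≃ₗ[F] (ι → F)} (hg : Good K g) (hh : Good K h) : Good K (g * h) := by
  refine ⟨K.mul_mem hg.1 hh.1, fun i => ?_⟩
  have : rf (e i) * (g * h) * rf (e i) = (rf (e i) * g * rf (e i)) * (rf (e i) * h * rf (e i)) := by
    calc _ = rf (e i) * g * 1 * h * rf (e i) := by group
      _ = rf (e i) * g * (rf (e i) * rf (e i)) * h * rf (e i) := by rw [rf_rf (e_dot_e i)]
      _ = _ := by group
  rw [this]
  exact K.mul_mem (hg.2 i) (hh.2 i)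

theorem rf_inv {v : ι → F} (hv : v ⬝ᵥ v = 1) : (rf v)⁻¹ = rf v := by
  rw [inv_eq_iff_mul_eq_one]; exact rf_rf hv

theorem Good.inv {g : (ι → F) ≃ₗ[F] (ι → F)} (hg : Good K g) : Good K g⁻¹ := by
  refine ⟨K.inv_mem hg.1, fun i => ?_⟩
  have h1 := K.inv_mem (hg.2 i)
  rw [_root_.mul_inv_rev, _root_.mul_inv_rev, rf_inv (e_dot_e i)] at h1
  rw [mul_assoc]; exact h1

theorem good_sup (D : Dat K) (hN : 5 ≤ Fintype.card ι) {g : (ι → F) ≃ₗ[F] (ι → F)} (hg : g ∈ K) {I : Finset ι}
    (hI : I.card = 3) (hs : Sup g I) : Good K g := by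
  refine ⟨hg, fun i => ?_⟩
  obtain ⟨l, hl⟩ : ∃ l, l ∉ insert i I := by
    by_contra hne
    push Not at hne
    have h1 : (Finset.univ : Finset ι) ⊆ insert i I := fun x _ => hne x
    have h2 := Finset.card_le_card h1
    have h3 := Finset.card_insert_le i I
    rw [Finset.card_univ] at h2
    omega
  rw [Finset.mem_insert, not_or] at hl
  have hil : i ≠ l := fun h => hl.1 h.symm
  have h1 : g * rf (e l) = rf (e l) * g := by rw [conj_rf (D.iso g hg) (e_dot_e l), hs l hl.2]
  have h2 : rf (e i) * g * rf (e i) = sg i l * g * sg l i := by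
    rw [← rf_e_mul hil, ← rf_e_mul hil.symm]
    calc rf (e i) * g * rf (e i) = rf (e i) * (1 * g) * rf (e i) := by rw [one_mul]
      _ = rf (e i) * ((rf (e l) * rf (e l)) * g) * rf (e i) := by rw [rf_rf (e_dot_e l)]
      _ = rf (e i) * rf (e l) * (rf (e l) * g) * rf (e i) := by group
      _ = rf (e i) * rf (e l) * (g * rf (e l)) * rf (e i) := by rw [h1]
      _ = rf (e i) * rf (e l) * g * (rf (e l) * rf (e i)) := by group
  rw [h2]
  exact K.mul_mem (K.mul_mem (D.sg i l hil) hg) (D.sg l i hil.symm)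

theorem phi_of_good (D : Dat K) {g : (ι → F) ≃ₗ[F] (ι → F)} (hg : Good K g) {i : ι} {v : ι → F} (hv : g (e i) = v) : Phi K v := by
  have hiso := D.iso g hg.1
  have hvv : v ⬝ᵥ v = 1 := by rw [← hv, hiso]; exact e_dot_e i
  refine ⟨hvv, ?_⟩
  have h1 : rf v * rf (e i) ∈ K := by
    have h2 : rf v = g * rf (e i) * g⁻¹ := by rw [conj_rf hiso (e_dot_e i), hv]; group
    rw [h2]
    have h3 : g * rf (e i) * g⁻¹ * rf (e i) = g * (rf (e i) * g⁻¹ * rf (e i)) := by group
    rw [h3]
    exact K.mul_mem hg.1 (hg.inv.2 i)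
  intro j
  by_cases hij : i = j
  · subst hij; exact h1
  · have h4 : rf v * rf (e j) = (rf v * rf (e i)) * sg i j := by
      rw [← rf_e_mul hij]
      calc rf v * rf (e j) = rf v * 1 * rf (e j) := by group
        _ = rf v * (rf (e i) * rf (e i)) * rf (e j) := by rw [rf_rf (e_dot_e i)]
        _ = _ := by group
    rw [h4]
    exact K.mul_mem h1 (D.sg i j hij)

/-- every element of a finite field of odd order is a sum of two squares -/
theorem two_sq [Finite F] (h2 : (2 : F) ≠ 0) (c : F) : ∃ a b : F, a * a + b * b = c := by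
  classical
  haveI : Fintype F := Fintype.ofFinite F
  have hodd : Fintype.card F % 2 = 1 := by
    apply FiniteField.odd_card_of_char_ne_two
    intro h
    have := CharP.cast_eq_zero F (ringChar F)
    rw [h] at this
    exact h2 (by exact_mod_cast this)
  obtain ⟨a, b, hab⟩ := FiniteField.exists_root_sum_quadratic (f := (Polynomial.X ^ 2 : Polynomial F))
    (g := Polynomial.X ^ 2 - Polynomial.C c) (by rw [Polynomial.degree_X_pow]; rfl)
    (by rw [Polynomial.degree_X_pow_sub_C (by norm_num)]; rfl) hodd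
  refine ⟨a, b, ?_⟩
  simp only [Polynomial.eval_pow, Polynomial.eval_X, Polynomial.eval_sub, Polynomial.eval_C] at hab
  linear_combination hab

theorem sup_fix {g : (ι → F) ≃ₗ[F] (ι → F)} {I : Finset ι} (hs : Sup g I) {x : ι → F} (hx : ∀ i ∈ I, x i = 0) : g x = x := by
  have h1 : x = ∑ i, x i • (e i : ι → F) := by
    funext k
    rw [Finset.sum_apply, Finset.sum_eq_single k]
    · simp [e_apply]
    · intro b _ hb; simp [e_apply, Ne.symm hb]
    · intro h; exact absurd (Finset.mem_univ _) h
  conv_lhs => rw [h1]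
  rw [map_sum]
  conv_rhs => rw [h1]
  refine Finset.sum_congr rfl fun i _ => ?_
  rw [map_smul]
  by_cases hi : i ∈ I
  · rw [hx i hi, zero_smul, zero_smul]
  · rw [hs i hi]

open Classical in
theorem exists_good [Finite F] (D : Dat K) (h2 : (2:F) ≠ 0) (h3 : (3:F) ≠ 0) (hN : 5 ≤ Fintype.card ι) (ht : TR K) :
    ∀ (n : ℕ) (v : ι → F), (Finset.univ.filter fun i => v i ≠ 0).card ≤ n → v ⬝ᵥ v = 1 → ∃ g, Good K g ∧ ∃ i, g (e i) = v := by
  intro n
  induction n with
  | zero =>
    intro v hn hv
    exfalso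
    have h0 : ∀ i, v i = 0 := by
      intro i
      by_contra hi
      have : i ∈ Finset.univ.filter fun i => v i ≠ 0 := by simp [hi]
      have := Finset.card_pos.2 ⟨i, this⟩
      omega
    have : v = 0 := funext h0
    rw [this] at hv
    simp at hv
  | succ n ih =>
    intro v hn hv
    set T := Finset.univ.filter fun i => v i ≠ 0 with hT
    have hTm : ∀ i, i ∈ T ↔ v i ≠ 0 := fun i => by simp [hT]
    by_cases hc : T.card ≤ 3
    · obtain ⟨I, hTI, hI⟩ := Finset.exists_superset_card_eq hc (by omega : 3 ≤ Fintype.card ι)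
      obtain ⟨i, hi⟩ : I.Nonempty := by rw [← Finset.card_pos]; omega
      obtain ⟨g, hg, hs, hgv⟩ := ht I hI (e i) v (fun j hj => by
          rw [e_apply, if_neg (fun h : j = i => hj (by rw [h]; exact hi))]) (fun j hj => by
          by_contra h; exact hj (hTI ((hTm j).2 h))) (by rw [e_dot_e, hv]) (by rw [e_dot_e]; exact one_ne_zero)
      exact ⟨g, good_sup D hN hg hI hs, i, hgv⟩
    · push Not at hc
      -- a triple of nonzero norm
      obtain ⟨i, j, k, hi, hj, hk, hij, hik, hjk, hnz⟩ : ∃ i j k, v i ≠ 0 ∧ v j ≠ 0 ∧ v k ≠ 0 ∧ i ≠ j ∧ i ≠ k ∧ j ≠ k ∧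
          v i * v i + v j * v j + v k * v k ≠ 0 := by
        by_contra hne
        push Not at hne
        obtain ⟨U, hU, hU4⟩ := Finset.exists_subset_card_eq (show 4 ≤ T.card by omega)
        obtain ⟨a, b, c, d, hab, hac, had, hbc, hbd, hcd, rfl⟩ := Finset.card_eq_four.1 hU4
        have ha := (hTm a).1 (hU (by simp))
        have hb := (hTm b).1 (hU (by simp))
        have hc' := (hTm c).1 (hU (by simp))
        have hd := (hTm d).1 (hU (by simp))
        have e1 := hne a b c ha hb hc' hab hac hbc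
        have e2 := hne a b d ha hb hd hab had hbd
        have e3 := hne a c d ha hc' hd hac had hcd
        have e4 := hne b c d hb hc' hd hbc hbd hcd
        have e5 : (3 : F) * (v a * v a) = 0 := by linear_combination e1 + e2 + e3 - 2 * e4
        rcases mul_eq_zero.1 e5 with h | h
        · exact h3 h
        · exact ha (mul_self_eq_zero.1 h)
      obtain ⟨a, b, hab⟩ := two_sq h2 (v i * v i + v j * v j + v k * v k)
      set I : Finset ι := {i, j, k} with hIdef
      have hI : I.card = 3 := Finset.card_eq_three.2 ⟨i, j, k, hij, hik, hjk, rfl⟩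
      have hmI : ∀ t, t ∈ I ↔ t = i ∨ t = j ∨ t = k := fun t => by simp [hIdef]
      set y : ι → F := fun t => if t ∈ I then v t else 0 with hy
      set y' : ι → F := a • e i + b • e j with hy'
      have hyy : y ⬝ᵥ y = v i * v i + v j * v j + v k * v k := by
        have : y ⬝ᵥ y = ∑ t ∈ I, v t * v t := by
          rw [dotProduct, ← Finset.sum_subset (Finset.subset_univ I)]
          · refine Finset.sum_congr rfl fun t ht' => ?_
            simp [hy, ht']
          · intro t _ ht'
            simp [hy, ht']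
        rw [this, hIdef, Finset.sum_insert (by simp [hij, hik]), Finset.sum_insert (by simp [hjk]), Finset.sum_singleton]
        ring
      have hyy' : y' ⬝ᵥ y' = a * a + b * b := by
        have h1 : y' ⬝ᵥ y' = a * y' i + b * y' j := by
          conv_lhs => rw [hy']
          rw [add_dotProduct, smul_dotProduct, smul_dotProduct, smul_eq_mul, smul_eq_mul, dotProduct_comm, dot_e,
            dotProduct_comm, dot_e]
        rw [h1, hy']
        simp [e_apply, hij, hij.symm]
      obtain ⟨g, hg, hs, hgy⟩ := ht I hI y y' (fun t ht' => by simp [hy, ht']) (fun t ht' => by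
          have h1 : t ≠ i := fun h => ht' ((hmI t).2 (Or.inl h))
          have h2 : t ≠ j := fun h => ht' ((hmI t).2 (Or.inr (Or.inl h)))
          simp [hy', e_apply, h1, h2]) (by rw [hyy, hyy', hab]) (by rw [hyy]; exact hnz)
      have hgood := good_sup D hN hg hI hs
      have hgv : g v = y' + (v - y) := by
        have h1 : v = y + (v - y) := by abel
        conv_lhs => rw [h1]
        rw [map_add, hgy, sup_fix hs (x := v - y) (fun t ht' => by simp [hy, ht'])]
      have hsub : (Finset.univ.filter fun t => (g v) t ≠ 0) ⊆ T.erase k := by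
        intro t ht'
        rw [Finset.mem_filter] at ht'
        have h1 := ht'.2
        rw [hgv, Pi.add_apply, Pi.sub_apply] at h1
        rw [Finset.mem_erase, hTm]
        constructor
        · rintro rfl
          apply h1
          have hk1 : t ∈ I := (hmI t).2 (Or.inr (Or.inr rfl))
          simp [hy, hy', e_apply, hk1, Ne.symm hik, Ne.symm hjk]
        · by_cases hti : t = i
          · rw [hti]; exact hi
          by_cases htj : t = j
          · rw [htj]; exact hj
          · intro hv0
            apply h1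
            have : y t = 0 := by simp [hy, hv0]
            rw [this, hv0]
            simp [hy', e_apply, hti, htj]
      have hcard : (Finset.univ.filter fun t => (g v) t ≠ 0).card ≤ n := by
        have h1 := Finset.card_le_card hsub
        rw [Finset.card_erase_of_mem ((hTm k).2 hk)] at h1
        omega
      obtain ⟨h, hh, m, hm⟩ := ih (g v) hcard (by rw [D.iso g hg]; exact hv)
      refine ⟨g⁻¹ * h, hgood.inv.mul hh, m, ?_⟩
      rw [LinearEquiv.mul_apply, hm]
      exact g.symm_apply_apply v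

theorem phi_all [Finite F] (D : Dat K) (h2 : (2:F) ≠ 0) (h3 : (3:F) ≠ 0) (hN : 5 ≤ Fintype.card ι) (ht : TR K)
    (v : ι → F) (hv : v ⬝ᵥ v = 1) : Phi K v := by
  obtain ⟨g, hg, i, hi⟩ := exists_good D h2 h3 hN ht _ v le_rfl hv
  exact phi_of_good D hg hi

end H63.FrPhiAll
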