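import Cfsg.Agent.Lib.H96.FrDef

set_option autoImplicit false

/-! Piece P7 of FRAMES (helper63 for helper96). -/

namespace H63.FrSupp

open Matrix H96.Fr

variable {ι F : Type*} [Fintype ι] [DecidableEq ι] [Field F]

theorem e_app (i k : ι) : (e i : ι → F) k = if k = i then 1 else 0 := by
  by_cases h : k = i
  · subst h; simp [e]
  · simp [e, h]

theorem pow_e {g : (ι → F) ≃ₗ[F] (ι → F)} {σ : Equiv.Perm ι}
    (hg : ∀ i, g (e i) = e (σ i) ∨ g (e i) = - e (σ i)) (n : ℕ) (i : ι) :
    (g ^ n) (e i) = e ((σ ^ n) i) ∨ (g ^ n) (e i) = - e ((σ ^ n) i) := by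
  induction n with
  | zero => left; rfl
  | succ n ih =>
    rw [pow_succ', pow_succ', LinearEquiv.mul_apply, Equiv.Perm.mul_apply]
    rcases ih with h | h <;> rw [h]
    · exact hg _
    · rw [map_neg]
      rcases hg ((σ ^ n) i) with h' | h' <;> rw [h']
      · right; rfl
      · left; rw [neg_neg]

theorem app_sigma {g : (ι → F) ≃ₗ[F] (ι → F)} {σ : Equiv.Perm ι}
    (hg : ∀ i, g (e i) = e (σ i) ∨ g (e i) = - e (σ i)) (x : ι → F) (i : ι) : g x (σ i) = x i ∨ g x (σ i) = - x i := by
  have h1 : x = ∑ j, x j • (e j : ι → F) := by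
    funext k
    rw [Finset.sum_apply, Finset.sum_eq_single k]
    · simp [e_app]
    · intro b _ hb; simp [e_app, Ne.symm hb]
    · intro h; exact absurd (Finset.mem_univ _) h
  have h2 : g x (σ i) = x i * g (e i) (σ i) := by
    conv_lhs => rw [h1]
    rw [map_sum, Finset.sum_apply, Finset.sum_eq_single i]
    · rw [map_smul, Pi.smul_apply, smul_eq_mul]
    · intro b _ hb
      rw [map_smul, Pi.smul_apply, smul_eq_mul]
      have hne : σ i ≠ σ b := fun h => hb (σ.injective h).symm
      rcases hg b with h | h <;> rw [h]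
      · rw [e_app, if_neg hne, mul_zero]
      · rw [Pi.neg_apply, e_app, if_neg hne, neg_zero, mul_zero]
    · intro h; exact absurd (Finset.mem_univ _) h
  rw [h2]
  rcases hg i with h | h <;> rw [h]
  · left; rw [e_app, if_pos rfl, mul_one]
  · right; rw [Pi.neg_apply, e_app, if_pos rfl]; ring

theorem zero_iff {g : (ι → F) ≃ₗ[F] (ι → F)} {σ : Equiv.Perm ι}
    (hg : ∀ i, g (e i) = e (σ i) ∨ g (e i) = - e (σ i)) {x : ι → F} (hx : g x = x) (i : ι) : x (σ i) = 0 ↔ x i = 0 := by
  have h := app_sigma hg x i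
  rw [hx] at h
  rcases h with h | h <;> rw [h]
  rw [neg_eq_zero]

theorem zero_zpow {g : (ι → F) ≃ₗ[F] (ι → F)} {σ : Equiv.Perm ι}
    (hg : ∀ i, g (e i) = e (σ i) ∨ g (e i) = - e (σ i)) {x : ι → F} (hx : g x = x) (n : ℤ) (i : ι) :
    x ((σ ^ n) i) = 0 ↔ x i = 0 := by
  induction n using Int.induction_on generalizing i with
  | zero => rfl
  | succ n ih =>
    rw [_root_.zpow_add_one, Equiv.Perm.mul_apply, ih, zero_iff hg hx]
  | pred n ih =>
    rw [_root_.zpow_sub_one, Equiv.Perm.mul_apply, ih, ← zero_iff hg hx (σ⁻¹ i)]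
    have : σ (σ⁻¹ i) = i := σ.apply_symm_apply i
    rw [this]

theorem supp_le {g : (ι → F) ≃ₗ[F] (ι → F)} (h2 : (2:F) ≠ 0) {σ : Equiv.Perm ι}
    (hg : ∀ i, g (e i) = e (σ i) ∨ g (e i) = - e (σ i)) (ho : Odd (orderOf g)) {W : Submodule F (ι → F)}
    (hW : Module.finrank F W ≤ 4) (h : ∀ x, g x - x ∈ W) : Odd (orderOf σ) ∧ σ.support.card ≤ σ.cycleType.card + 4 := by
  classical
  constructor
  · have hd : orderOf σ ∣ orderOf g := by
      apply orderOf_dvd_of_pow_eq_one
      ext1 i
      have h1 := pow_e hg (orderOf g) i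
      rw [pow_orderOf_eq_one] at h1
      by_contra hne
      have hne' : i ≠ (σ ^ orderOf g) i := fun h => hne h.symm
      rcases h1 with h1 | h1
      · have h3 := congrFun h1 i
        rw [LinearEquiv.coe_one, id, e_app, e_app, if_pos rfl, if_neg hne'] at h3
        exact one_ne_zero h3
      · have h3 := congrFun h1 i
        rw [LinearEquiv.coe_one, id, Pi.neg_apply, e_app, e_app, if_pos rfl, if_neg hne', neg_zero] at h3
        exact one_ne_zero h3
    exact ho.of_dvd_nat hd
  · -- representatives of the cycles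
    have hrep : ∀ c : Equiv.Perm ι, ∃ r : Finset ι, r.card ≤ 1 ∧ (c ∈ σ.cycleFactorsFinset → ∃ a ∈ r, a ∈ c.support) := by
      intro c
      by_cases hc : c ∈ σ.cycleFactorsFinset
      · have hcyc := (Equiv.Perm.mem_cycleFactorsFinset_iff.1 hc).1
        obtain ⟨a, ha⟩ := hcyc.nonempty_support
        exact ⟨{a}, by simp, fun _ => ⟨a, by simp, ha⟩⟩
      · exact ⟨∅, by simp, fun h => absurd h hc⟩
    choose r hr hr' using hrep
    set R : Finset ι := σ.supportᶜ ∪ σ.cycleFactorsFinset.biUnion r with hR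
    have hRc : R.card ≤ (Fintype.card ι - σ.support.card) + σ.cycleType.card := by
      refine (Finset.card_union_le _ _).trans ?_
      rw [Finset.card_compl]
      refine Nat.add_le_add_left ?_ _
      refine Finset.card_biUnion_le.trans ?_
      rw [Equiv.Perm.cycleType_def, Multiset.card_map, Finset.card_val]
      calc ∑ c ∈ σ.cycleFactorsFinset, (r c).card ≤ ∑ _c ∈ σ.cycleFactorsFinset, 1 := Finset.sum_le_sum fun c _ => hr c
        _ = _ := by rw [Finset.sum_const, smul_eq_mul, mul_one]
    let T : (ι → F) →ₗ[F] (ι → F) := (g : (ι → F) →ₗ[F] (ι → F)) - LinearMap.id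
    have hT : ∀ x, T x = g x - x := fun x => rfl
    have hrange : Module.finrank F (LinearMap.range T) ≤ 4 := by
      refine le_trans (Submodule.finrank_mono ?_) hW
      rintro _ ⟨x, rfl⟩
      exact h x
    have hrn := LinearMap.finrank_range_add_finrank_ker T
    rw [Module.finrank_pi] at hrn
    -- the fixed space embeds into functions on `R`
    let P : LinearMap.ker T →ₗ[F] (R → F) := (LinearMap.funLeft F F (Subtype.val : R → ι)).comp (LinearMap.ker T).subtype
    have hP : Function.Injective P := by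
      rw [← LinearMap.ker_eq_bot, LinearMap.ker_eq_bot']
      rintro ⟨x, hx⟩ h0
      have hgx : g x = x := by
        have := LinearMap.mem_ker.1 hx
        rw [hT, sub_eq_zero] at this; exact this
      have hxR : ∀ a ∈ R, x a = 0 := fun a ha => congrFun h0 ⟨a, ha⟩
      apply Subtype.ext
      funext i
      show x i = 0
      by_cases hi : i ∈ σ.support
      · have hc : σ.cycleOf i ∈ σ.cycleFactorsFinset := Equiv.Perm.cycleOf_mem_cycleFactorsFinset_iff.2 hi
        obtain ⟨a, ha, has⟩ := hr' _ hc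
        have haR : a ∈ R := Finset.mem_union_right _ (Finset.mem_biUnion.2 ⟨_, hc, ha⟩)
        rw [Equiv.Perm.mem_support_cycleOf_iff] at has
        obtain ⟨⟨n, hn⟩, _⟩ := has
        have h3 := zero_zpow hg hgx n i
        rw [hn, hxR a haR] at h3
        exact h3.1 rfl
      · exact hxR i (Finset.mem_union_left _ (Finset.mem_compl.2 hi))
    have hk := LinearMap.finrank_le_finrank_of_injective hP
    rw [Module.finrank_pi, Fintype.card_coe] at hk
    have hs : σ.support.card ≤ Fintype.card ι := Finset.card_le_univ _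
    omega

end H63.FrSupp
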