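import Cfsg.Agent.Lib.H69.IC0

/-! S1315, piece P10 (helper63). -/

set_option autoImplicit false
set_option linter.unusedSectionVars false

open Subgroup Cfsg H26.LocalFitting H69.IC
open scoped commutatorElement Pointwise

universe u

namespace H63.IcP10

section general

variable {G : Type*} [Group G] [Finite G] {p : ℕ} [hp : Fact p.Prime]

theorem exists_conj_mem (S : Sylow p G)
    (N : Subgroup G) [N.Normal] {x : G} (hx : x ∈ (S : Subgroup G) ⊔ N)
    (hxp : IsPGroup p (Subgroup.zpowers x)) : ∃ n ∈ N, n * x * n⁻¹ ∈ (S : Subgroup G) := by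
  set K := (S : Subgroup G) ⊔ N with hK
  have hSK : (S : Subgroup G) ≤ K := le_sup_left
  obtain ⟨Q, hQ⟩ := (hxp.comap_subtype (K := K)).exists_le_sylow
  obtain ⟨c, hc⟩ := MulAction.exists_smul_eq K Q (S.subtype hSK)
  have h3 : (c : G) * x * (c : G)⁻¹ ∈ (S : Subgroup G) := by
    have h4 : (⟨x, hx⟩ : K) ∈ Q := hQ (Subgroup.mem_subgroupOf.mpr (Subgroup.mem_zpowers x))
    have h5 : c * ⟨x, hx⟩ * c⁻¹ ∈ (S.subtype hSK : Sylow p K) := by
      rw [← hc]
      exact ⟨⟨x, hx⟩, h4, rfl⟩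
    exact h5
  obtain ⟨s, hs, n, hn, hsn⟩ := Subgroup.mem_sup_of_normal_right.mp c.2
  refine ⟨n, hn, ?_⟩
  have h4 : n * x * n⁻¹ = s⁻¹ * ((c : G) * x * (c : G)⁻¹) * s := by
    rw [← hsn]
    group
  rw [h4]
  exact Subgroup.mul_mem _ (Subgroup.mul_mem _ (Subgroup.inv_mem _ hs) h3) hs

theorem relIndex_sup' (H N : Subgroup G) [N.Normal] : H.relIndex (H ⊔ N) = H.relIndex N := by
  have h1 := Subgroup.card_mul_index (H.subgroupOf (H ⊔ N))
  have h2 := Subgroup.card_mul_index (N.subgroupOf (H ⊔ N))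
  have h3 := Subgroup.card_mul_index ((H ⊓ N).subgroupOf N)
  have h4 := Subgroup.card_mul_index ((H ⊓ N).subgroupOf H)
  rw [Nat.card_congr (Subgroup.subgroupOfEquivOfLe (le_sup_left : H ≤ H ⊔ N)).toEquiv] at h1
  rw [Nat.card_congr (Subgroup.subgroupOfEquivOfLe (le_sup_right : N ≤ H ⊔ N)).toEquiv] at h2
  rw [Nat.card_congr (Subgroup.subgroupOfEquivOfLe (inf_le_right : H ⊓ N ≤ N)).toEquiv] at h3
  rw [Nat.card_congr (Subgroup.subgroupOfEquivOfLe (inf_le_left : H ⊓ N ≤ H)).toEquiv] at h4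
  change Nat.card H * H.relIndex (H ⊔ N) = _ at h1
  change Nat.card N * N.relIndex (H ⊔ N) = _ at h2
  change _ * (H ⊓ N).relIndex N = _ at h3
  change _ * (H ⊓ N).relIndex H = _ at h4
  rw [Subgroup.relIndex_sup_right] at h2
  rw [Subgroup.inf_relIndex_right] at h3
  rw [Subgroup.inf_relIndex_left] at h4
  have h5 : 0 < Nat.card H := Nat.card_pos
  apply Nat.eq_of_mul_eq_mul_left h5
  rw [h1, ← h2, ← h4, ← h3]
  ring

theorem not_dvd_relIndex (P : Sylow p G) {H : Subgroup G} (hH : H.IsSubnormal) :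
    ¬ p ∣ (P : Subgroup G).relIndex H := by
  induction hH with
  | top =>
    rw [Subgroup.relIndex_top_right]
    exact P.not_dvd_index
  | step H K hHK hK hN ih =>
    intro h
    apply ih
    have h1 : ((P : Subgroup G).subgroupOf K).relIndex (H.subgroupOf K) = (P : Subgroup G).relIndex H :=
      Subgroup.relIndex_subgroupOf hHK
    rw [← h1, ← relIndex_sup'] at h
    exact h.trans ⟨_, (Subgroup.relIndex_mul_index le_sup_left).symm⟩

theorem sylow_max (P : Sylow p G) {H : Subgroup G} (hH : H.IsSubnormal) {Q : Subgroup G}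
    (hQ : IsPGroup p Q) (h1 : (P : Subgroup G) ⊓ H ≤ Q) (h2 : Q ≤ H) : Q = (P : Subgroup G) ⊓ H := by
  have h3 := not_dvd_relIndex P hH
  have h4 : ((P : Subgroup G) ⊓ H).relIndex Q * Q.relIndex H = ((P : Subgroup G) ⊓ H).relIndex H :=
    Subgroup.relIndex_mul_relIndex _ _ _ h1 h2
  rw [Subgroup.inf_relIndex_right] at h4
  have h5 : ((P : Subgroup G) ⊓ H).relIndex Q ∣ Nat.card Q := Subgroup.index_dvd_card _
  obtain ⟨k, hk⟩ := IsPGroup.iff_card.mp hQ
  rw [hk] at h5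
  obtain ⟨m, hm, hm2⟩ := (Nat.dvd_prime_pow hp.out).mp h5
  have hm0 : m = 0 := by
    by_contra hne
    apply h3
    rw [← h4, hm2]
    exact dvd_mul_of_dvd_left (dvd_pow_self p hne) _
  rw [hm0, pow_zero, Subgroup.relIndex_eq_one] at hm2
  exact le_antisymm hm2 h1

end general

/-- the statement of P7 -/
def ZC (X : Type u) [Group X] : Prop := ∀ {M R : Subgroup X} (_ : IsQuasisimple M) (_ : pPrimeCore 2 ↥M = ⊥)
    {u z : X} (_ : u ∈ M) (_ : orderOf u = 2) (_ : ∀ t ∈ M, orderOf t = 2 → t = u) (_ : orderOf z = 2)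
    (_ : z ≠ u) (_ : z ∈ normalizer (M : Set X)) (_ : ∃ m ∈ M, z * m ≠ m * z) (_ : IsPGroup 2 R)
    (_ : R ≤ M) (_ : ∀ Q : Subgroup X, IsPGroup 2 Q → R ≤ Q → Q ≤ M → Q = R)
    (_ : z ∈ normalizer (R : Set X)),
    ∃ j ∈ M, j * z * j⁻¹ * z⁻¹ ∈ R ∧ (j * z * j⁻¹ * z⁻¹) * (j * z * j⁻¹ * z⁻¹) = u

theorem core {X : Type u} [Group X] [Finite X] {J : Subgroup X} {u z y : X}
    (hzc : ZC (X ⧸ pPrimeCore 2 X))
    (hJ : IsPComponent 2 J) (huc : ∀ x : X, x * u = u * x) (hu2 : orderOf u = 2) (huJ : u ∈ J)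
    (huniq : ∀ t ∈ J, orderOf t = 2 → t = u) (hz : orderOf z = 2) (hzu : z ≠ u)
    (hy2 : ∃ k : ℕ, y ^ 2 ^ k = 1) (hzy : z ∈ zpowers (y * y)) (hyJ : y ∉ normalizer (J : Set X))
    (hyyJ : y * y ∈ normalizer (J : Set X)) (hnt : ∃ m ∈ J, z * m * z⁻¹ * m⁻¹ ∉ pPrimeCore 2 X) :
    ∃ g : X, (g * z * g⁻¹) * z = z * (g * z * g⁻¹) ∧ (g * z * g⁻¹) * y * (g * z * g⁻¹)⁻¹ * y⁻¹ ≠ 1 ∧
      (∃ k : ℕ, ((g * z * g⁻¹) * y * (g * z * g⁻¹)⁻¹ * y⁻¹) ^ 2 ^ k = 1) ∧
      ∀ i : ℕ, ((g * z * g⁻¹) * y * (g * z * g⁻¹)⁻¹ * y⁻¹) ^ i * ((g * z * g⁻¹) * y * (g * z * g⁻¹)⁻¹ * y⁻¹) ^ i = 1 →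
        ((g * z * g⁻¹) * y * (g * z * g⁻¹)⁻¹ * y⁻¹) ^ i = 1 ∨
        ((g * z * g⁻¹) * y * (g * z * g⁻¹)⁻¹ * y⁻¹) ^ i = u := by
  have hp2 : Fact (Nat.Prime 2) := ⟨Nat.prime_two⟩
  set O := pPrimeCore 2 X with hO
  set π : X →* X ⧸ O := QuotientGroup.mk' O with hπ
  have hπs : Function.Surjective π := QuotientGroup.mk'_surjective O
  have hπO : ∀ g : X, π g = 1 ↔ g ∈ O := fun g => QuotientGroup.eq_one_iff g
  -- 2-elements
  have h2O : ∀ x : X, (∃ k : ℕ, x ^ 2 ^ k = 1) → π x = 1 → x = 1 := by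
    rintro x ⟨k, hk⟩ hx
    have h1 := H26.LocalFitting.coprime_orderOf_of_mem_pPrimeCore (p := 2) ((hπO x).mp hx)
    have h2 : orderOf x ∣ 2 ^ k := orderOf_dvd_of_pow_eq_one hk
    exact orderOf_eq_one_iff.mp (Nat.eq_one_of_dvd_coprimes (Nat.Coprime.pow_right k h1) dvd_rfl h2)
  -- Sylow subgroup
  have hyp : IsPGroup 2 (zpowers y) := by
    obtain ⟨k, hk⟩ := hy2
    rw [IsPGroup.iff_card]
    have h1 : orderOf y ∣ 2 ^ k := orderOf_dvd_of_pow_eq_one hk
    obtain ⟨m, -, hm⟩ := (Nat.dvd_prime_pow Nat.prime_two).mp h1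
    exact ⟨m, by rw [Nat.card_zpowers, hm]⟩
  obtain ⟨P, hP⟩ := hyp.exists_le_sylow
  have hyP : y ∈ (P : Subgroup X) := hP (mem_zpowers y)
  have hzpow : ∃ n : ℤ, (y * y) ^ n = z := hzy
  obtain ⟨n0, hn0⟩ := hzpow
  have hzP : z ∈ (P : Subgroup X) := by
    rw [← hn0]
    exact Subgroup.zpow_mem _ (Subgroup.mul_mem _ hyP hyP) _
  have hPp : ∀ x ∈ (P : Subgroup X), ∃ k : ℕ, x ^ 2 ^ k = 1 := by
    intro x hx
    obtain ⟨k, hk⟩ := P.2 ⟨x, hx⟩
    exact ⟨k, congrArg Subtype.val hk⟩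
  have hPO : ∀ x ∈ (P : Subgroup X), π x = 1 → x = 1 := fun x hx => h2O x (hPp x hx)
  have hPinj : ∀ a ∈ (P : Subgroup X), ∀ b ∈ (P : Subgroup X), π a = π b → a = b := by
    intro a ha b hb hab
    have h1 := hPO (a * b⁻¹) (Subgroup.mul_mem _ ha (Subgroup.inv_mem _ hb))
      (by rw [map_mul, map_inv, hab, mul_inv_cancel])
    exact mul_inv_eq_one.mp h1
  -- images
  set Jb : Subgroup (X ⧸ O) := J.map π with hJb
  have hJc : IsComponent Jb := H26.PComponents.isComponent_map hJ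
  have hzz : z * z = 1 := by
    rw [← pow_two, ← hz]
    exact pow_orderOf_eq_one z
  have huu : u * u = 1 := by
    rw [← pow_two, ← hu2]
    exact pow_orderOf_eq_one u
  have hu1 : u ≠ 1 := by
    intro h
    rw [h, orderOf_one] at hu2
    omega
  have hz1 : z ≠ 1 := by
    intro h
    rw [h, orderOf_one] at hz
    omega
  have hub1 : π u ≠ 1 := fun h => hu1 (h2O u ⟨1, by rw [pow_one, pow_two, huu]⟩ h)
  have hzb1 : π z ≠ 1 := fun h => hz1 (h2O z ⟨1, by rw [pow_one, pow_two, hzz]⟩ h)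
  have hub2 : orderOf (π u) = 2 := orderOf_eq_prime (by rw [← map_pow, pow_two, huu, map_one]) hub1
  have hzb2 : orderOf (π z) = 2 := orderOf_eq_prime (by rw [← map_pow, pow_two, hzz, map_one]) hzb1
  -- an element of order ≤ 2 with image ub is u
  have hequ : ∀ x : X, x * x = 1 → π x = π u → x = u := by
    intro x hx hxu
    have h1 := h2O (x * u) ⟨1, by
      rw [pow_one, pow_two]
      calc x * u * (x * u) = x * (u * x) * u := by simp only [mul_assoc]
        _ = x * (x * u) * u := by rw [← huc]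
        _ = (x * x) * (u * u) := by simp only [mul_assoc]
        _ = 1 := by rw [hx, huu, mul_one]⟩ (by rw [map_mul, hxu, ← map_mul, huu, map_one])
    calc x = x * (u * u) := by rw [huu, mul_one]
      _ = (x * u) * u := by rw [mul_assoc]
      _ = u := by rw [h1, one_mul]
  have hzbu : π z ≠ π u := fun h => hzu (hequ z hzz h)
  have huJb : π u ∈ Jb := Subgroup.mem_map_of_mem π huJ
  -- unique involution of Jb
  have huniqb : ∀ t ∈ Jb, orderOf t = 2 → t = π u := by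
    rintro _ ⟨j, hj, rfl⟩ ht
    have hcard : (Nat.card O).Coprime 2 := H1.Cores.coprime_card_pPrimeCore 2
    have hodd : Odd (Nat.card O) := Nat.coprime_two_right.mp hcard
    obtain ⟨m, hm⟩ := hodd
    have h1 : π j * π j = 1 := by
      have h0 := pow_orderOf_eq_one (π j)
      rw [ht] at h0
      rw [← pow_two, h0]
    have h2 : j * j ∈ O := by
      rw [← hπO, map_mul, h1]
    have h3 : (j * j) ^ (Nat.card O) = 1 := by
      have := pow_card_eq_one' (x := (⟨j * j, h2⟩ : O))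
      exact congrArg Subtype.val this
    have h4 : (j ^ (Nat.card O)) * (j ^ (Nat.card O)) = 1 := by
      rw [← (Commute.refl j).mul_pow, h3]
    have h5 : π (j ^ (Nat.card O)) = π j := by
      rw [map_pow, hm, pow_succ, pow_mul, pow_two, h1, one_pow, one_mul]
    have h6 : orderOf (j ^ (Nat.card O)) = 2 := by
      apply orderOf_eq_prime
      · rw [pow_two, h4]
      · intro h7
        rw [h7, map_one] at h5
        rw [← h5, orderOf_one] at ht
        omega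
    rw [← h5, huniq _ (J.pow_mem hj _) h6]
  have hzJn : z ∈ normalizer (J : Set X) := by
    rw [← hn0]
    exact Subgroup.zpow_mem _ hyyJ _
  have hNm : ∀ g ∈ normalizer (J : Set X), π g ∈ normalizer (Jb : Set (X ⧸ O)) := fun g hg =>
    Subgroup.le_normalizer_map π (Subgroup.mem_map_of_mem π hg)
  have hntb : ∃ m ∈ Jb, π z * m ≠ m * π z := by
    obtain ⟨m, hm, hm2⟩ := hnt
    refine ⟨π m, Subgroup.mem_map_of_mem π hm, fun h => hm2 ?_⟩
    rw [← hπO, map_mul, map_mul, map_mul, map_inv, map_inv, h]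
    group
  have hOJ : pPrimeCore 2 ↥Jb = ⊥ := by
    have h1 := H26.Subnormal.map_subtype_pPrimeCore 2 hJc.1
    rw [H1.Cores.pPrimeCore_quotient_pPrimeCore, inf_bot_eq] at h1
    exact (Subgroup.map_eq_bot_iff_of_injective _ Jb.subtype_injective).mp h1
  -- the image of the Sylow subgroup
  let Pb : Sylow 2 (X ⧸ O) := P.mapSurjective hπs
  have hPb : (Pb : Subgroup (X ⧸ O)) = (P : Subgroup X).map π := rfl
  have hPbm : ∀ x ∈ (P : Subgroup X), π x ∈ (Pb : Subgroup (X ⧸ O)) := fun x hx =>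
    Subgroup.mem_map_of_mem π hx
  set R : Subgroup (X ⧸ O) := (Pb : Subgroup (X ⧸ O)) ⊓ Jb with hR
  have hzRn : π z ∈ normalizer (R : Set (X ⧸ O)) := by
    have h1 : zpowers (π z) ≤ normalizer ((Pb : Subgroup (X ⧸ O)) : Set (X ⧸ O)) := by
      rw [zpowers_le]
      exact Subgroup.le_normalizer (hPbm z hzP)
    have h2 : zpowers (π z) ≤ normalizer (Jb : Set (X ⧸ O)) := by
      rw [zpowers_le]
      exact hNm z hzJn
    exact H1.Coprime2.le_normalizer_inf h1 h2 (mem_zpowers _)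
  obtain ⟨j, hj, hcR, hcc⟩ := hzc hJc.2 hOJ huJb hub2 huniqb hzb2 hzbu (hNm z hzJn) hntb
    (Pb.2.to_le inf_le_left) (inf_le_right : R ≤ Jb)
    (fun Q hQ h1 h2 => sylow_max Pb hJc.1 hQ h1 h2) hzRn
  -- elementwise notation
  set c := j * π z * j⁻¹ * (π z)⁻¹ with hc
  have hcJ : c ∈ Jb := hcR.2
  have hcP : c ∈ (Pb : Subgroup (X ⧸ O)) := hcR.1
  have hzbi : (π z)⁻¹ = π z := inv_eq_of_mul_eq_one_left (by rw [← map_mul, hzz, map_one])
  have hzbzb : π z * π z = 1 := by rw [← map_mul, hzz, map_one]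
  have hzc1 : π z * c * (π z)⁻¹ = c⁻¹ := by
    have h1 : c⁻¹ = π z * j * (π z)⁻¹ * j⁻¹ := by
      rw [hc]
      group
    rw [h1, hc, hzbi]
    simp only [mul_assoc, hzbzb, mul_one]
  have hjz : j * π z = c * π z * j := by
    rw [hc]
    group
  -- the other component
  have hyJb : Jb.map (MulAut.conj (π y)).toMonoidHom ≠ Jb := by
    intro h
    apply hyJ
    have hJy : IsPComponent 2 (J.map ((MulAut.conj y : X ≃* X) : X →* X)) :=
      (H26.PComponents.map_mulEquiv_iff (MulAut.conj y)).mpr hJ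
    have h1 : (J.map ((MulAut.conj y : X ≃* X) : X →* X)).map π = J.map π := by
      rw [Subgroup.map_map]
      have h2 : π.comp ((MulAut.conj y : X ≃* X) : X →* X) = (MulAut.conj (π y)).toMonoidHom.comp π := by
        ext x
        change π (y * x * y⁻¹) = π y * π x * (π y)⁻¹
        rw [map_mul, map_mul, map_inv]
      rw [h2, ← Subgroup.map_map]
      exact h
    have h2 := H26.PComponents.eq_of_map_eq hJy hJ h1
    rw [Subgroup.mem_normalizer_iff]
    intro x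
    constructor
    · intro hx
      rw [← h2]
      exact ⟨x, hx, rfl⟩
    · intro hx
      rw [← h2] at hx
      obtain ⟨x', hx', hx2⟩ := hx
      have h3 : y * x' * y⁻¹ = y * x * y⁻¹ := hx2
      have h4 : x' = x := by
        have h5 := congrArg (fun t => y⁻¹ * t * y) h3
        simpa [mul_assoc] using h5
      rw [← h4]
      exact hx'
  have hJy' : IsComponent (Jb.map (MulAut.conj (π y)).toMonoidHom) :=
    (H26.Components.map_conj_iff (π y)).mpr hJc
  have hcomm := H26.Components.commutator_eq_bot_of_ne hJy' hJc hyJb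
  rw [Subgroup.commutator_eq_bot_iff_le_centralizer] at hcomm
  have hcm : ∀ a ∈ Jb, ∀ b ∈ Jb, a * (π y * b * (π y)⁻¹) = (π y * b * (π y)⁻¹) * a := by
    intro a ha b hb
    have h1 : π y * b * (π y)⁻¹ ∈ Jb.map (MulAut.conj (π y)).toMonoidHom := ⟨b, hb, rfl⟩
    exact Subgroup.mem_centralizer_iff.mp (hcomm h1) a ha
  have hzy2 : π z * π y = π y * π z := by
    rw [← map_mul, ← map_mul, ← hn0]
    congr 1
    have h1 : Commute (y * y) y := (Commute.refl y).mul_left (Commute.refl y)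
    exact (h1.zpow_left n0).eq
  have hzyi : π z * (π y)⁻¹ = (π y)⁻¹ * π z := by
    rw [eq_inv_mul_iff_mul_eq, ← mul_assoc, ← hzy2, mul_assoc, mul_inv_cancel, mul_one]
  set c' := π y * c * (π y)⁻¹ with hc'
  have hcc' : ∀ a ∈ Jb, a * c' = c' * a := fun a ha => hcm a ha c hcJ
  have hubc : ∀ x : X ⧸ O, x * π u = π u * x := by
    intro x
    obtain ⟨x, rfl⟩ := hπs x
    rw [← map_mul, huc, map_mul]
  have hc'c' : c' * c' = π u := by
    have h1 : c' * c' = π y * (c * c) * (π y)⁻¹ := by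
      rw [hc']
      group
    rw [h1, hcc, hubc, mul_assoc, mul_inv_cancel, mul_one]
  have hzc' : π z * c' * (π z)⁻¹ = c'⁻¹ := by
    have h1 : π z * c' * (π z)⁻¹ = π y * (π z * c * (π z)⁻¹) * (π y)⁻¹ := by
      rw [hc', hzbi]
      calc π z * (π y * c * (π y)⁻¹) * π z = (π z * π y) * c * ((π y)⁻¹ * π z) := by simp only [mul_assoc]
        _ = (π y * π z) * c * (π z * (π y)⁻¹) := by rw [hzy2, hzyi]
        _ = π y * (π z * c * π z) * (π y)⁻¹ := by simp only [mul_assoc]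
    rw [h1, hzc1, hc']
    group
  -- the conjugating element
  set ρ := j * (π y * j * (π y)⁻¹) with hρ
  set v := c' * c * π z with hv
  have hρz : ρ * π z * ρ⁻¹ = v := by
    rw [mul_inv_eq_iff_eq_mul, hρ, hv]
    have h1 : π y * j * (π y)⁻¹ * π z = c' * π z * (π y * j * (π y)⁻¹) := by
      calc π y * j * (π y)⁻¹ * π z = π y * j * ((π y)⁻¹ * π z) := by simp only [mul_assoc]
        _ = π y * (j * π z) * (π y)⁻¹ := by rw [← hzyi]; simp only [mul_assoc]
        _ = π y * (c * π z * j) * (π y)⁻¹ := by rw [hjz]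
        _ = π y * c * (π z * j) * (π y)⁻¹ := by simp only [mul_assoc]
        _ = π y * c * ((π y)⁻¹ * π y) * (π z * j) * (π y)⁻¹ := by rw [inv_mul_cancel, mul_one]
        _ = c' * (π y * π z) * j * (π y)⁻¹ := by rw [hc']; simp only [mul_assoc]
        _ = c' * (π z * π y) * j * (π y)⁻¹ := by rw [hzy2]
        _ = c' * π z * (π y * j * (π y)⁻¹) := by simp only [mul_assoc]
    calc j * (π y * j * (π y)⁻¹) * π z = j * (π y * j * (π y)⁻¹ * π z) := by simp only [mul_assoc]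
      _ = j * (c' * π z * (π y * j * (π y)⁻¹)) := by rw [h1]
      _ = (j * c') * π z * (π y * j * (π y)⁻¹) := by simp only [mul_assoc]
      _ = (c' * j) * π z * (π y * j * (π y)⁻¹) := by rw [hcc' j hj]
      _ = c' * (j * π z) * (π y * j * (π y)⁻¹) := by simp only [mul_assoc]
      _ = c' * (c * π z * j) * (π y * j * (π y)⁻¹) := by rw [hjz]
      _ = c' * c * π z * (j * (π y * j * (π y)⁻¹)) := by simp only [mul_assoc]
  have hypb : π y ∈ (Pb : Subgroup (X ⧸ O)) := hPbm y hyP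
  have hvP : v ∈ (Pb : Subgroup (X ⧸ O)) :=
    Subgroup.mul_mem _ (Subgroup.mul_mem _ (Subgroup.mul_mem _ (Subgroup.mul_mem _ hypb hcP)
      (Subgroup.inv_mem _ hypb)) hcP) (hPbm z hzP)
  -- lift
  obtain ⟨r, hr⟩ := hπs ρ
  have hrz : π (r * z * r⁻¹) = v := by
    rw [map_mul, map_mul, map_inv, hr, hρz]
  have hrzP : r * z * r⁻¹ ∈ (P : Subgroup X) ⊔ O := by
    have h1 : π (r * z * r⁻¹) ∈ (P : Subgroup X).map π := by
      rw [hrz]
      exact hvP
    obtain ⟨q, hq, hq2⟩ := h1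
    have h2 : q⁻¹ * (r * z * r⁻¹) ∈ O := by
      rw [← hπO, map_mul, map_inv, ← hq2, inv_mul_cancel]
    have h3 : r * z * r⁻¹ = q * (q⁻¹ * (r * z * r⁻¹)) := by group
    rw [h3]
    exact Subgroup.mul_mem_sup hq h2
  have hrz2 : (r * z * r⁻¹) * (r * z * r⁻¹) = 1 := by
    have h1 : (r * z * r⁻¹) * (r * z * r⁻¹) = r * (z * z) * r⁻¹ := by group
    rw [h1, hzz, mul_one, mul_inv_cancel]
  have hrzg : IsPGroup 2 (zpowers (r * z * r⁻¹)) := by
    rw [IsPGroup.iff_card, Nat.card_zpowers]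
    have h1 : orderOf (r * z * r⁻¹) ∣ 2 ^ 1 := orderOf_dvd_of_pow_eq_one (by rw [pow_one, pow_two, hrz2])
    obtain ⟨m, -, hm⟩ := (Nat.dvd_prime_pow Nat.prime_two).mp h1
    exact ⟨m, hm⟩
  obtain ⟨o, ho, hoP⟩ := exists_conj_mem P O hrzP hrzg
  have hgw : (o * r) * z * (o * r)⁻¹ = o * (r * z * r⁻¹) * o⁻¹ := by
    group
  have hwv : π ((o * r) * z * (o * r)⁻¹) = v := by
    rw [hgw, map_mul, map_mul, map_inv, (hπO o).mpr ho, hrz, one_mul, inv_one, mul_one]
  have hwP : (o * r) * z * (o * r)⁻¹ ∈ (P : Subgroup X) := by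
    rw [hgw]
    exact hoP
  set w := (o * r) * z * (o * r)⁻¹ with hw
  have haP : w * y * w⁻¹ * y⁻¹ ∈ (P : Subgroup X) :=
    Subgroup.mul_mem _ (Subgroup.mul_mem _ (Subgroup.mul_mem _ hwP hyP) (Subgroup.inv_mem _ hwP))
      (Subgroup.inv_mem _ hyP)
  -- v commutes with z
  have hvz : v * π z = π z * v := by
    have h1 : π z * v * (π z)⁻¹ = v := by
      have h2 : π z * v * (π z)⁻¹ = (π z * c' * (π z)⁻¹) * (π z * c * (π z)⁻¹) * π z := by
        rw [hv]
        group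
      rw [h2, hzc', hzc1, hv]
      congr 1
      have h3 : (c' * c) * (c' * c) = 1 := by
        calc (c' * c) * (c' * c) = c' * (c * c') * c := by simp only [mul_assoc]
          _ = c' * (c' * c) * c := by rw [hcc' c hcJ]
          _ = (c' * c') * (c * c) := by simp only [mul_assoc]
          _ = π u * π u := by rw [hc'c', hcc]
          _ = 1 := by rw [← map_mul, huu, map_one]
      have h4 : c'⁻¹ * c⁻¹ = (c * c')⁻¹ := (mul_inv_rev c c').symm
      rw [h4, hcc' c hcJ]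
      exact inv_eq_of_mul_eq_one_left h3
    rw [mul_inv_eq_iff_eq_mul] at h1
    exact h1.symm
  -- the commutator
  have hy2n : π y * π y ∈ normalizer (Jb : Set (X ⧸ O)) := by
    rw [← map_mul]
    exact hNm _ hyyJ
  set d := c * (π y * π y * c * (π y * π y)⁻¹)⁻¹ with hd
  have hdJ : d ∈ Jb :=
    Jb.mul_mem hcJ (Jb.inv_mem ((Subgroup.mem_normalizer_iff.mp hy2n c).mp hcJ))
  have had : π (w * y * w⁻¹ * y⁻¹) = d := by
    rw [map_mul, map_mul, map_mul, map_inv, map_inv, hwv]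
    have h1 : v * π y * v⁻¹ * (π y)⁻¹ = c' * c * (π y * (c' * c)⁻¹ * (π y)⁻¹) := by
      rw [hv]
      calc c' * c * π z * π y * (c' * c * π z)⁻¹ * (π y)⁻¹
          = c' * c * (π z * π y) * (π z)⁻¹ * (c' * c)⁻¹ * (π y)⁻¹ := by group
        _ = c' * c * (π y * π z) * (π z)⁻¹ * (c' * c)⁻¹ * (π y)⁻¹ := by rw [hzy2]
        _ = c' * c * (π y * (c' * c)⁻¹ * (π y)⁻¹) := by group
    have h2 : π y * (c' * c)⁻¹ * (π y)⁻¹ = c'⁻¹ * (π y * π y * c * (π y * π y)⁻¹)⁻¹ := by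
      rw [hc']
      group
    have hcJ2 : π y * π y * c * (π y * π y)⁻¹ ∈ Jb := (Subgroup.mem_normalizer_iff.mp hy2n c).mp hcJ
    rw [h1, h2, hd, ← hcc' c hcJ]
    group
  refine ⟨o * r, ?_, ?_, hPp _ haP, ?_⟩
  · -- commute
    exact hPinj (w * z) (Subgroup.mul_mem _ hwP hzP) (z * w) (Subgroup.mul_mem _ hzP hwP)
      (by rw [map_mul π w z, map_mul π z w, hwv, hvz])
  · -- nontrivial
    intro h
    have h1 : d = 1 := by
      rw [← had]
      exact (congrArg π h).trans (map_one π)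
    rw [hd, mul_inv_eq_one] at h1
    have h2 : (π y * π y) * c = c * (π y * π y) := by
      have h3 := congrArg (fun t => t * (π y * π y)) h1
      simp only [inv_mul_cancel_right] at h3
      exact h3.symm
    have h3 : Commute (π y * π y) c := h2
    have h4 : Commute (π z) c := by
      rw [← hn0, map_zpow, map_mul]
      exact h3.zpow_left n0
    have h5 : c⁻¹ = c := by
      rw [← hzc1, h4.eq, mul_assoc, mul_inv_cancel, mul_one]
    have h6 : c * c = 1 := by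
      nth_rewrite 1 [← h5]
      exact inv_mul_cancel c
    rw [hcc] at h6
    exact hub1 h6
  · intro i hi
    have haiP : (w * y * w⁻¹ * y⁻¹) ^ i ∈ (P : Subgroup X) := Subgroup.pow_mem _ haP i
    by_cases h1 : (w * y * w⁻¹ * y⁻¹) ^ i = 1
    · exact Or.inl h1
    · right
      apply hequ _ hi
      apply huniqb
      · rw [map_pow, had]
        exact Jb.pow_mem hdJ i
      · apply orderOf_eq_prime
        · rw [← map_pow, pow_two, hi, map_one]
        · exact fun h2 => h1 (hPO _ haiP h2)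

/-- **P10** -/
theorem exists_w_aux {G : Type u} [Group G] [Finite G] {J : Subgroup G} {u z y : G}
    (hzc : ZC (↥(centralizer ({u} : Set G)) ⧸ pPrimeCore 2 ↥(centralizer ({u} : Set G))))
    (hJ : Dat u J) (hz : orderOf z = 2) (hzu : z ≠ u) (hyu : y * u = u * y) (hy2 : ∃ k : ℕ, y ^ 2 ^ k = 1) (hzy : z ∈ zpowers (y * y)) (hyJ : y ∉ normalizer (J : Set G)) (hyyJ : y * y ∈ normalizer (J : Set G)) (hnt : ∃ m ∈ J, z * m * z⁻¹ * m⁻¹ ∉ ppc 2 (centralizer ({u} : Set G))) : ∃ g : G, g * u = u * g ∧ (g * z * g⁻¹) * z = z * (g * z * g⁻¹) ∧ (g * z * g⁻¹) * y * (g * z * g⁻¹)⁻¹ * y⁻¹ ≠ 1 ∧ (∃ k : ℕ, ((g * z * g⁻¹) * y * (g * z * g⁻¹)⁻¹ * y⁻¹) ^ 2 ^ k = 1) ∧ ∀ i : ℕ, ((g * z * g⁻¹) * y * (g * z * g⁻¹)⁻¹ * y⁻¹) ^ i * ((g * z * g⁻¹) * y * (g * z * g⁻¹)⁻¹ * y⁻¹) ^ i = 1 → ((g * z * g⁻¹) * y * (g * z * g⁻¹)⁻¹ * y⁻¹) ^ i = 1 ∨ ((g * z * g⁻¹) * y * (g * z * g⁻¹)⁻¹ * y⁻¹) ^ i = u := by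
  set C := centralizer ({u} : Set G) with hC
  have hmem : ∀ x : G, x ∈ C ↔ x * u = u * x := by
    intro x
    rw [hC, Subgroup.mem_centralizer_singleton_iff]
  have hJC : J ≤ C := hJ.pc.1
  have hyC : y ∈ C := (hmem y).mpr hyu
  have hzC : z ∈ C := by
    obtain ⟨n0, hn0⟩ := hzy
    rw [← hn0]
    exact C.zpow_mem (C.mul_mem hyC hyC) _
  have huC : u ∈ C := hJC hJ.mem
  obtain ⟨g, hg1, hg2, ⟨k, hg3⟩, hg4⟩ := core (X := C) (J := J.subgroupOf C) (u := ⟨u, huC⟩)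
    (z := ⟨z, hzC⟩) (y := ⟨y, hyC⟩) hzc hJ.pc.2
    (fun x => Subtype.ext ((hmem x).mp x.2)) (by rw [Subgroup.orderOf_mk]; exact hJ.ord)
    hJ.mem (fun t ht ht2 => Subtype.ext (hJ.uniq t ht (by rw [Subgroup.orderOf_coe]; exact ht2)))
    (by rw [Subgroup.orderOf_mk]; exact hz) (fun h => hzu (congrArg Subtype.val h))
    (by
      obtain ⟨k, hk⟩ := hy2
      exact ⟨k, Subtype.ext hk⟩)
    (by
      obtain ⟨n0, hn0⟩ := hzy
      exact ⟨n0, Subtype.ext hn0⟩)
    (by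
      intro h
      apply hyJ
      rw [Subgroup.mem_normalizer_iff] at h ⊢
      intro x
      constructor
      · intro hx
        exact (h ⟨x, hJC hx⟩).mp hx
      · intro hx
        have hxC : x ∈ C := by
          have h1 := C.mul_mem (C.mul_mem (C.inv_mem hyC) (hJC hx)) hyC
          have h2 : y⁻¹ * (y * x * y⁻¹) * y = x := by group
          rwa [h2] at h1
        exact (h ⟨x, hxC⟩).mpr hx)
    (by
      rw [Subgroup.mem_normalizer_iff] at hyyJ ⊢
      intro x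
      exact hyyJ x)
    (by
      obtain ⟨m, hm, hm2⟩ := hnt
      refine ⟨⟨m, hJC hm⟩, hm, fun h => hm2 ?_⟩
      exact ⟨_, h, rfl⟩)
  refine ⟨g, (hmem g).mp g.2, congrArg Subtype.val hg1, fun h => hg2 (Subtype.ext h),
    ⟨k, congrArg Subtype.val hg3⟩, fun i hi => ?_⟩
  rcases hg4 i (Subtype.ext hi) with h1 | h1
  · exact Or.inl (congrArg Subtype.val h1)
  · exact Or.inr (congrArg Subtype.val h1)

end H63.IcP10
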