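import Cfsg.Agent.Lib.H69.IC0

/-! S1315, piece P2 (helper63). -/

set_option autoImplicit false
set_option linter.unusedSectionVars false

open Subgroup Cfsg H26.LocalFitting H69.IC
open scoped commutatorElement Pointwise

universe u

namespace H63.IcP2

/-- the order of the group of inner automorphisms -/
theorem card_inn {A : Type*} [Group A] [Finite A] :
    Nat.card (MulAut.conj : A →* MulAut A).range = Nat.card (A ⧸ center A) := by
  have h1 : (MulAut.conj : A →* MulAut A).ker = center A := by
    ext x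
    rw [MonoidHom.mem_ker, Subgroup.mem_center_iff]
    constructor
    · intro h y
      have h2 := DFunLike.congr_fun h y
      rw [MulAut.conj_apply, MulAut.one_apply, mul_inv_eq_iff_eq_mul] at h2
      exact h2.symm
    · intro h
      ext y
      rw [MulAut.conj_apply, MulAut.one_apply, mul_inv_eq_iff_eq_mul]
      exact (h y).symm
  rw [← Subgroup.index_ker, h1, Subgroup.index_eq_card]

theorem card_sq_congr {A B : Type*} [Group A] [Group B] (e : A ≃* B) :
    Nat.card (A ⧸ center A) = Nat.card (B ⧸ center B) := by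
  have h1 : (center A).map e.toMonoidHom = center B := by
    ext x
    constructor
    · rintro ⟨y, hy, rfl⟩
      rw [Subgroup.mem_center_iff]
      intro z
      obtain ⟨w, rfl⟩ := e.surjective z
      change e w * e y = e y * e w
      rw [← map_mul, ← map_mul, Subgroup.mem_center_iff.mp hy w]
    · intro hx
      refine ⟨e.symm x, ?_, e.apply_symm_apply x⟩
      rw [SetLike.mem_coe, Subgroup.mem_center_iff]
      intro z
      apply e.injective
      rw [map_mul, map_mul, e.apply_symm_apply]
      exact Subgroup.mem_center_iff.mp hx (e z)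
  rw [← Subgroup.index_eq_card, ← Subgroup.index_eq_card, ← h1]
  exact (Subgroup.index_map_equiv (center A) e).symm

variable {G : Type u} [Group G] [Finite G]

/-- **P2** -/
theorem dich {M E : Subgroup G} {t : G} (hM : IsPComponent 2 M) (ht : t ∈ normalizer (M : Set G)) (hEt : ∀ e ∈ E, e * t = t * e) (hE : E ≤ pLayer 2 G) (hbig : Big E (sq M)) : ⁅E, M⁆ ≤ pPrimeCore 2 G ∨ ∀ m ∈ M, t * m * t⁻¹ * m⁻¹ ∈ pPrimeCore 2 G := by
  have hp : Fact (Nat.Prime 2) := ⟨Nat.prime_two⟩
  set O := pPrimeCore 2 G with hO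
  set π : G →* G ⧸ O := QuotientGroup.mk' O with hπ
  have hπO : ∀ g : G, π g = 1 → g ∈ O := fun g hg => (QuotientGroup.eq_one_iff g).mp hg
  set Mb : Subgroup (G ⧸ O) := M.map π with hMb
  have hMc : IsComponent Mb := H26.PComponents.isComponent_map hM
  have hN : ∀ g ∈ normalizer (M : Set G), π g ∈ normalizer (Mb : Set (G ⧸ O)) := by
    intro g hg
    exact Subgroup.le_normalizer_map π (Subgroup.mem_map_of_mem π hg)
  have hEn : ∀ e ∈ E, π e ∈ normalizer (Mb : Set (G ⧸ O)) := fun e he =>
    hN e (H26.PComponents.pLayer_le_normalizer hM (hE he))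
  -- the action of `E`
  let φ : E →* MulAut Mb := Mb.normalizerMonoidHom.comp
    { toFun := fun e => ⟨π e, hEn e e.2⟩
      map_one' := Subtype.ext (map_one π)
      map_mul' := fun a b => Subtype.ext (map_mul π (a : G) b) }
  have hφ : ∀ (e : E) (y : Mb), ((φ e y : Mb) : G ⧸ O) = π e * y * (π e)⁻¹ := fun e y => rfl
  -- the layer induces inner automorphisms
  have hlay : layer (G ⧸ O) ≤ Mb ⊔ centralizer (Mb : Set (G ⧸ O)) := by
    refine sSup_le fun K hK => ?_
    rcases H26.Components.eq_or_commutator_eq_bot (K := K) hK hMc with h1 | h1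
    · rw [h1]
      exact le_sup_left
    · exact (commutator_eq_bot_iff_le_centralizer.mp h1).trans le_sup_right
  have hinn : φ.range ≤ (MulAut.conj : Mb →* MulAut Mb).range := by
    rintro _ ⟨e, rfl⟩
    have h1 : π e ∈ layer (G ⧸ O) := by
      rw [← H26.PComponents.map_pLayer 2]
      exact Subgroup.mem_map_of_mem π (hE e.2)
    obtain ⟨k, hk, c, hc, hkc⟩ := H26.Basic.mem_sup_of_le_normalizer' (H := Mb)
      (K := centralizer (Mb : Set (G ⧸ O))) (centralizer_le_normalizer _) |>.mp (hlay h1)
    refine ⟨⟨k, hk⟩, ?_⟩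
    ext y
    rw [MulAut.conj_apply, hφ, ← hkc]
    change k * y * k⁻¹ = _
    have h2 := Subgroup.mem_centralizer_iff.mp hc y y.2
    rw [mul_inv_rev]
    have h3 : k * c * y * (c⁻¹ * k⁻¹) = k * (c * y) * (c⁻¹ * k⁻¹) := by simp only [mul_assoc]
    rw [h3, ← h2]
    simp [mul_assoc]
  by_cases hker : φ.ker = ⊤
  · -- trivial action
    left
    rw [Subgroup.commutator_le]
    intro e he m hm
    apply hπO
    have h1 : φ ⟨e, he⟩ = 1 := by
      rw [← MonoidHom.mem_ker, hker]
      exact Subgroup.mem_top _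
    have h2 := hφ ⟨e, he⟩ ⟨π m, Subgroup.mem_map_of_mem π hm⟩
    rw [h1, MulAut.one_apply] at h2
    change π m = π e * π m * (π e)⁻¹ at h2
    rw [map_commutatorElement, commutatorElement_def, ← h2, mul_inv_cancel]
  · right
    -- the action of `E` is everything
    have hcard : Nat.card (MulAut.conj : Mb →* MulAut Mb).range ≤ Nat.card φ.range := by
      rw [card_inn, ← Subgroup.index_ker]
      have h1 := hbig φ.ker inferInstance hker
      have h2 : sq M = Nat.card (Mb ⧸ center Mb) := card_sq_congr (H26.PComponents.quotEquiv 2 hM.1)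
      rw [h2] at h1
      exact h1
    have heq : φ.range = (MulAut.conj : Mb →* MulAut Mb).range :=
      Subgroup.eq_of_le_of_card_ge hinn hcard
    -- `t` acts trivially on `Mb / Z(Mb)`
    have htc : π t ∈ centralizer (Mb : Set (G ⧸ O)) := by
      apply H37.LBal.centMod_le (H26.Components.isPerfect hMc)
      have htn : π t ∈ normalizer (Mb : Set (G ⧸ O)) := hN t ht
      refine ⟨htn, H1.Coprime2.le_normalizer_inf (le_refl _)
        (H1.Coprime2.le_normalizer_centralizer le_rfl) htn, ?_⟩
      intro m hm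
      -- m = e c
      obtain ⟨e, he⟩ : ∃ e : E, φ e = MulAut.conj (⟨m, hm⟩ : Mb) := by
        have h1 : MulAut.conj (⟨m, hm⟩ : Mb) ∈ φ.range := by
          rw [heq]
          exact ⟨_, rfl⟩
        exact h1
      have hc : (π e)⁻¹ * m ∈ centralizer (Mb : Set (G ⧸ O)) := by
        rw [Subgroup.mem_centralizer_iff]
        intro y hy
        have h1 := congrArg Subtype.val (DFunLike.congr_fun he ⟨y, hy⟩)
        rw [hφ, MulAut.conj_apply] at h1
        change π e * y * (π e)⁻¹ = m * y * m⁻¹ at h1
        have h2 : y = (π e)⁻¹ * (m * y * m⁻¹) * π e := by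
          rw [← h1]
          group
        have h3 : y * ((π e)⁻¹ * m) = ((π e)⁻¹ * (m * y * m⁻¹) * π e) * ((π e)⁻¹ * m) := by
          rw [← h2]
        rw [h3]
        group
      have htcn : π t * ((π e)⁻¹ * m) * (π t)⁻¹ ∈ centralizer (Mb : Set (G ⧸ O)) := by
        have h1 := H1.Coprime2.le_normalizer_centralizer (le_refl (normalizer (Mb : Set (G ⧸ O)))) htn
        exact (Subgroup.mem_normalizer_iff.mp h1 _).mp hc
      have hte : π t * (π e) = π e * π t := by
        rw [← map_mul, ← map_mul, hEt e e.2]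
      have hcomm : ⁅π t, m⁆ = (m * (((π e)⁻¹ * m)⁻¹ * (π t * ((π e)⁻¹ * m) * (π t)⁻¹)) * m⁻¹) := by
        have h1 : (π t) * (π e)⁻¹ = (π e)⁻¹ * π t := by
          rw [eq_inv_mul_iff_mul_eq, ← mul_assoc, ← hte, mul_assoc, mul_inv_cancel, mul_one]
        rw [commutatorElement_def]
        have h2 : π t * ((π e)⁻¹ * m) * (π t)⁻¹ = (π e)⁻¹ * (π t * m * (π t)⁻¹) := by
          rw [← mul_assoc (π t), h1]
          simp only [mul_assoc]
        rw [h2]
        group
      have hcm : ⁅π t, m⁆ ∈ Mb := by
        rw [commutatorElement_def]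
        exact Mb.mul_mem ((Subgroup.mem_normalizer_iff.mp htn m).mp hm) (Mb.inv_mem hm)
      refine ⟨hcm, ?_⟩
      rw [hcomm]
      have h5 := (Subgroup.mem_normalizer_iff.mp (H1.Coprime2.le_normalizer_centralizer
        (le_refl (normalizer (Mb : Set (G ⧸ O)))) (Subgroup.le_normalizer hm)) _).mp
        ((centralizer (Mb : Set (G ⧸ O))).mul_mem ((centralizer (Mb : Set (G ⧸ O))).inv_mem hc) htcn)
      exact h5
    intro m hm
    apply hπO
    have h1 := Subgroup.mem_centralizer_iff.mp htc (π m) (Subgroup.mem_map_of_mem π hm)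
    rw [map_mul, map_mul, map_mul, map_inv, map_inv, ← h1]
    group

end H63.IcP2
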