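import Mathlib

/-!
# Recognising a simple subgroup by a presentation

A bound for the order of a group generated by letters satisfying relations, applied in a direct product
`A × B` with `B` simple, generated by letters satisfying the relations and of order equal to the bound.
-/

set_option autoImplicit false
set_option linter.all false

namespace H63.Sub
open Subgroup

variable {A B L : Type} [Group A] [Group B]

theorem iso_of_bound (gA : L → A) (gB : L → B) [IsSimpleGroup B]
    (hgen : closure (Set.range gB) = ⊤)
    (hb : Nat.card (closure (Set.range fun x => (gA x, gB x))) ≤ Nat.card B ∧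
      Nat.card (closure (Set.range fun x => (gA x, gB x))) ≠ 0)
    (hne : ∃ x, gA x ≠ 1) : Nonempty (B ≃* closure (Set.range gA)) := by
  set K : Subgroup (A × B) := closure (Set.range fun x => (gA x, gB x)) with hK
  have hfin : Finite K := Nat.finite_of_card_ne_zero hb.2
  let pB : K →* B := (MonoidHom.snd A B).comp K.subtype
  let pA : K →* A := (MonoidHom.fst A B).comp K.subtype
  have hBr : pB.range = ⊤ := by
    change ((MonoidHom.snd A B).comp K.subtype).range = ⊤
    rw [MonoidHom.range_comp, range_subtype, hK, MonoidHom.map_closure, ← hgen]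
    congr 1
    ext y
    constructor
    · rintro ⟨_, ⟨x, rfl⟩, rfl⟩; exact ⟨x, rfl⟩
    · rintro ⟨x, rfl⟩; exact ⟨_, ⟨x, rfl⟩, rfl⟩
  have hAr : pA.range = closure (Set.range gA) := by
    change ((MonoidHom.fst A B).comp K.subtype).range = _
    rw [MonoidHom.range_comp, range_subtype, hK, MonoidHom.map_closure]
    congr 1
    ext y
    constructor
    · rintro ⟨_, ⟨x, rfl⟩, rfl⟩; exact ⟨x, rfl⟩
    · rintro ⟨x, rfl⟩; exact ⟨_, ⟨x, rfl⟩, rfl⟩
  have hBs : Function.Surjective pB := MonoidHom.range_eq_top.1 hBr
  have hfB : Finite B := Finite.of_surjective _ hBs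
  have hcard : Nat.card B = Nat.card K := le_antisymm (Nat.card_le_card_of_surjective pB hBs) hb.1
  have hBi : Function.Bijective pB := (Nat.bijective_iff_surjective_and_card pB).2 ⟨hBs, hcard.symm⟩
  have eK : K ≃* B := MulEquiv.ofBijective pB hBi
  have hKs : IsSimpleGroup K := eK.isSimpleGroup
  have hinj : Function.Injective pA := by
    rw [← MonoidHom.ker_eq_bot_iff]
    rcases hKs.eq_bot_or_eq_top_of_normal pA.ker inferInstance with h | h
    · exact h
    · exfalso
      obtain ⟨x, hx⟩ := hne
      apply hx
      have hm : (gA x, gB x) ∈ K := subset_closure ⟨x, rfl⟩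
      have h1 : (⟨_, hm⟩ : K) ∈ pA.ker := by rw [h]; exact mem_top _
      exact h1
  have e2 : K ≃* pA.range := MonoidHom.ofInjective hinj
  rw [hAr] at e2
  exact ⟨eK.symm.trans e2⟩

end H63.Sub
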