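import Cfsg.Prelude.Def_Sporadic
import Cfsg.Agent.Lib.H61.J1e
import Cfsg.Agent.Lib.H63.TCJ1s
import Cfsg.Agent.Lib.H63.SubTrick
import Cfsg.Agent.Lib.H35.NetKit

/-!
# `J₁` from a presentation: a group with a nontrivial pair of elements satisfying the relations contains `J₁`
-/

set_option autoImplicit false
set_option maxRecDepth 100000
set_option linter.all false

namespace H63.J1P
open Subgroup H35.Net H61.J1 H61.Mat7

abbrev Lt := H63.TCJ1s.Lt

/-- words for the letters -/
def wd : Lt → List Bool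
  | .a => [true, false, false, false, false, true, false]
  | .b => [false, true, false, true, true, true, false, false, true]
  | .bi => [false, true, false, true, true, true, false, false, true, false, true, false, true, true, true, false, false, true]

theorem wordG_append (u v : List Bool) : wordG (u ++ v) = wordG u * wordG v := by
  induction u with
  | nil => simp [wordG]
  | cons b u ih => cases b <;> simp [wordG, ih, mul_assoc]

/-- the letters in `J₁` -/
def gB (x : Lt) : Cfsg.Spor.J1 := ⟨wordG (wd x), wordG_mem _⟩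

theorem prod_eq (w : List Lt) : (((w.map gB).prod : Cfsg.Spor.J1) : GM) = wordG (w.flatMap wd) := by
  induction w with
  | nil => rfl
  | cons x w ih => rw [List.map_cons, List.prod_cons, List.flatMap_cons, wordG_append, coe_mul, ih]; rfl

theorem Cd_prod (w : List Lt) : Cd (wordC (w.flatMap wd)) (((w.map gB).prod : Cfsg.Spor.J1) : GM) := by
  rw [prod_eq]; exact Cd_word _

theorem rel_of {w : List Lt} {n : ℕ} (h : Nat.beq (powC (wordC (w.flatMap wd)) n) one = true) :
    ((w.map gB).prod) ^ n = 1 := by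
  apply Subtype.ext
  rw [coe_pow, coe_one]
  have h1 := Cd_pow (Cd_prod w) n
  rw [Nat.eq_of_beq_eq_true h] at h1
  exact h1.inj Cd_one

theorem he : ∀ p ∈ TCJ1s.extra, ((p.1.map gB).prod) ^ p.2 = 1 := by
  have h : (TCJ1s.extra.all fun p => Nat.beq (powC (wordC (p.1.flatMap wd)) p.2) one) = true := by
    decide +kernel
  intro p hp
  exact rel_of (List.all_eq_true.1 h p hp)

theorem hp : ∀ x y, (gB x * gB y) ^ TCJ1s.mm x y = 1 := by
  have h : ∀ x y, Nat.beq (powC (wordC (([x, y] : List Lt).flatMap wd)) (TCJ1s.mm x y)) one = true := by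
    intro x y; cases x <;> cases y <;> decide +kernel
  intro x y
  have h1 := rel_of (h x y)
  simpa using h1

theorem hinv : ∀ x, gB (TCJ1s.inv x) = (gB x)⁻¹ := by
  have h : ∀ x, Nat.beq (powC (wordC (([TCJ1s.inv x, x] : List Lt).flatMap wd)) 1) one = true := by
    intro x; cases x <;> decide +kernel
  intro x
  have h1 := rel_of (h x)
  simp only [List.map_cons, List.map_nil, List.prod_cons, List.prod_nil, mul_one, pow_one] at h1
  exact eq_inv_of_mul_eq_one_left h1

/-- letters of a word -/
def chL : Char → Lt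
  | 'a' => .a
  | 'b' => .b
  | _ => .bi

theorem eq_of {w : List Lt} {N : ℕ} {g : GM} (hN : Cd N g) (h : Nat.beq (wordC (w.flatMap wd)) N = true) :
    g = (((w.map gB).prod : Cfsg.Spor.J1) : GM) := by
  have h1 := Cd_prod w
  rw [Nat.eq_of_beq_eq_true h] at h1
  exact hN.inj h1

/-- the words for `X`, `Y` -/
def wX : List Lt := [.a, .b, .a, .bi, .a, .bi, .a, .b, .a, .bi, .a, .bi, .a, .b, .a, .b, .a, .bi, .a, .b, .a, .bi, .a, .b, .a, .b, .a, .bi]
def wY : List Lt := [.bi, .a, .b, .a, .b, .a, .bi, .a, .b, .a, .bi, .a, .b, .a, .bi, .a, .b, .a, .b, .a, .bi, .a, .b, .a, .bi, .a, .bi, .a, .b, .a, .bi, .a, .bi, .a, .b, .a]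

theorem eX : (Cfsg.Spor.jankoX : GM) = (((wX.map gB).prod : Cfsg.Spor.J1) : GM) := eq_of Cd_X (by decide +kernel)
theorem eY : (Cfsg.Spor.jankoY : GM) = (((wY.map gB).prod : Cfsg.Spor.J1) : GM) := eq_of Cd_Y (by decide +kernel)

theorem prod_mem' (w : List Lt) : (w.map gB).prod ∈ Subgroup.closure (Set.range gB) := by
  refine list_prod_mem fun y hy => ?_
  obtain ⟨z, -, rfl⟩ := List.mem_map.1 hy
  exact subset_closure ⟨z, rfl⟩

theorem gen : Subgroup.closure (Set.range gB) = ⊤ := by
  have hJ : Cfsg.Spor.J1 ≤ (Subgroup.closure (Set.range gB)).map (Subgroup.subtype Cfsg.Spor.J1) := by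
    refine (Subgroup.closure_le _).2 ?_
    intro x hx
    rcases hx with rfl | rfl
    · rw [SetLike.mem_coe, eX]
      exact ⟨_, prod_mem' wX, rfl⟩
    · rw [SetLike.mem_coe, eY]
      exact ⟨_, prod_mem' wY, rfl⟩
  rw [eq_top_iff]
  intro x _
  obtain ⟨y, hy, h⟩ := hJ x.2
  have : y = x := Subtype.ext h
  rwa [← this]

/-- a group containing elements satisfying the relations, not all trivial, contains `J₁` -/
theorem isJ1 {A : Type} [Group A] (gA : Lt → A) (hinvA : ∀ x, gA (TCJ1s.inv x) = (gA x)⁻¹)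
    (hpA : ∀ x y, (gA x * gA y) ^ TCJ1s.mm x y = 1)
    (heA : ∀ p ∈ TCJ1s.extra, ((p.1.map gA).prod) ^ p.2 = 1) (hne : ∃ x, gA x ≠ 1) :
    Cfsg.IsJ1 (Subgroup.closure (Set.range gA)) := by
  have hsM : IsSimpleGroup Cfsg.Spor.J1 := H61.J1.simple
  have hprod : ∀ w : List Lt, (w.map fun x => (gA x, gB x)).prod = ((w.map gA).prod, (w.map gB).prod) := by
    intro w
    induction w with
    | nil => rfl
    | cons x w ih => simp only [List.map_cons, List.prod_cons, ih]; rfl
  have hb := TCJ1s.main (G := A × Cfsg.Spor.J1) (g := fun x => (gA x, gB x))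
    (H := zpowers (gA .a * gA .b, gB .a * gB .b))
    (fun x => Prod.ext (hinvA x) (hinv x))
    (fun x y => Prod.ext (hpA x y) (hp x y))
    (fun p h => by
      rw [hprod]
      exact Prod.ext (heA p h) (he p h))
    (by
      intro r hr
      simp only [TCJ1s.subs, List.mem_cons, List.mem_nil_iff, or_false] at hr
      subst hr
      rw [hprod]
      simp only [List.map_cons, List.map_nil, List.prod_cons, List.prod_nil, mul_one]
      exact mem_zpowers _)
  set K : Subgroup (A × Cfsg.Spor.J1) := Subgroup.closure (Set.range fun x => (gA x, gB x)) with hK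
  set Z : Subgroup (A × Cfsg.Spor.J1) := zpowers (gA .a * gA .b, gB .a * gB .b) with hZ
  have h7 : (gA .a * gA .b, gB .a * gB .b) ^ 7 = 1 := by
    have h1 := heA ([.a, .b], 7) (by decide)
    have h2 := he ([.a, .b], 7) (by decide)
    simp only [List.map_cons, List.map_nil, List.prod_cons, List.prod_nil, mul_one] at h1 h2
    exact Prod.ext h1 h2
  have hZc : Nat.card Z ≤ 7 ∧ Nat.card Z ≠ 0 := by
    rw [hZ, Nat.card_zpowers]
    have hd : orderOf (gA .a * gA .b, gB .a * gB .b) ∣ 7 := orderOf_dvd_of_pow_eq_one h7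
    have := Nat.le_of_dvd (by norm_num) hd
    exact ⟨this, fun h => by rw [h] at hd; norm_num at hd⟩
  have hZK : Z ≤ K := by
    rw [hZ, zpowers_le]
    have ha : (gA .a, gB .a) ∈ K := subset_closure ⟨.a, rfl⟩
    have hb' : (gA .b, gB .b) ∈ K := subset_closure ⟨.b, rfl⟩
    exact K.mul_mem ha hb'
  have hfin : Nat.card K ≤ 175560 ∧ Nat.card K ≠ 0 := by
    have h := card_le_step hZK hb hZc
    exact ⟨h.1.trans (by norm_num), h.2⟩
  obtain ⟨e⟩ := H63.Sub.iso_of_bound gA gB gen (by rw [card_J1]; exact hfin) hne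
  refine ⟨e.symm.isSimpleGroup, ?_⟩
  rw [← Nat.card_congr e.toEquiv, card_J1]

end H63.J1P
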