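import Cfsg.Agent.Lib.H35.MulM11
import Cfsg.Agent.Lib.H63.TCM11s
import Cfsg.Agent.Lib.H63.SubTrick

/-!
# `M₁₁` from a presentation: a group with a nontrivial pair of elements satisfying the relations contains `M₁₁`
-/

set_option autoImplicit false
set_option maxRecDepth 100000
set_option linter.all false

namespace H63.M11P
open Subgroup H35.Net H35.Stem H35.TC H40.PermCode H40.MathieuBase H35.MulM11

abbrev Lt := H63.TCM11s.Lt

/-- words for the letters -/
def wd : Lt → W X
  | .a => [(1, true), (2, false), (1, true), (2, false)]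
  | .b => [(2, true), (0, false)]
  | .bi => [(0, true), (2, false)]

/-- the letters in `M₁₁` -/
noncomputable def gB (x : Lt) : Cfsg.Spor.M11 := ev g (wd x)

theorem prod_eq (w : List Lt) : (w.map gB).prod = ev g (w.flatMap wd) := by
  rw [ev_flatMap]; rfl

theorem rel_eq (p : List Lt × ℕ) : ((p.1.map gB).prod) ^ p.2 = ev g (rep (p.1.flatMap wd) p.2) := by
  rw [prod_eq, ev_rep]

theorem mm_eq (x y : Lt) : (gB x * gB y) ^ TCM11s.mm x y = ev g (rep (wd x ++ wd y) (TCM11s.mm x y)) := by
  rw [ev_rep, ev_append]; rfl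

theorem hinv : ∀ x, gB (TCM11s.inv x) = (gB x)⁻¹ := by
  have h : ∀ x, isOne 5 24 (evc 5 24 code codei (wd (TCM11s.inv x) ++ wd x)) = true := by
    intro x; cases x <;> decide +kernel
  intro x
  have h1 := tr (h x)
  rw [ev_append] at h1
  exact eq_inv_of_mul_eq_one_left h1

theorem hp : ∀ x y, (gB x * gB y) ^ TCM11s.mm x y = 1 := by
  have h : ∀ x y, isOne 5 24 (evc 5 24 code codei (rep (wd x ++ wd y) (TCM11s.mm x y))) = true := by
    intro x y; cases x <;> cases y <;> decide +kernel
  intro x y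
  rw [mm_eq]
  exact tr (h x y)

theorem he : ∀ p ∈ TCM11s.extra, ((p.1.map gB).prod) ^ p.2 = 1 := by
  have h : (TCM11s.extra.all fun p => isOne 5 24 (evc 5 24 code codei (rep (p.1.flatMap wd) p.2))) = true := by
    decide +kernel
  intro p hp
  rw [rel_eq]
  exact tr (List.all_eq_true.1 h p hp)

/-- words for the generators in the letters -/
def bk : X → List Lt := ![[.b, .a, .bi, .a, .bi, .a, .b, .b, .a, .bi, .a, .bi, .a, .b],
  [.a, .b, .a, .bi, .a, .bi, .a, .bi, .a, .bi, .a, .b, .b, .a, .bi, .a, .b, .a],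
  [.b, .b, .a, .bi, .a, .bi, .a, .b, .b, .a, .bi, .a, .bi, .a, .b]]

theorem gen : closure (Set.range gB) = ⊤ := by
  rw [eq_top_iff, ← H35.MulM11.gen, Kl, closure_le]
  rintro _ ⟨x, -, rfl⟩
  have h : ∀ x, eqc 5 24 (code x) (evc 5 24 code codei ((bk x).flatMap wd)) = true := by
    intro x; fin_cases x <;> decide +kernel
  have e : g x = ev g ((bk x).flatMap wd) :=
    eq_ev_of_code hn24 (g := g) rep_c rep_ci (p := g x) (rep_c x) (h x)
  rw [e, ← prod_eq]
  refine list_prod_mem fun y hy => ?_
  obtain ⟨z, -, rfl⟩ := List.mem_map.1 hy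
  exact subset_closure ⟨z, rfl⟩

theorem simple : IsSimpleGroup Cfsg.Spor.M11 := by
  have e := MonoidHom.ofInjective H61.M11Deg.ρ_injective
  have hs := H61.M11Deg.isDeg11.simple
  exact e.isSimpleGroup

/-- a group containing elements satisfying the relations, not all trivial, contains `M₁₁` -/
theorem isM11 {A : Type} [Group A] (gA : Lt → A) (hinvA : ∀ x, gA (TCM11s.inv x) = (gA x)⁻¹)
    (hpA : ∀ x y, (gA x * gA y) ^ TCM11s.mm x y = 1)
    (heA : ∀ p ∈ TCM11s.extra, ((p.1.map gA).prod) ^ p.2 = 1) (hne : ∃ x, gA x ≠ 1) :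
    Cfsg.IsM11 (closure (Set.range gA)) := by
  have hsM := simple
  have hprod : ∀ w : List Lt, (w.map fun x => (gA x, gB x)).prod = ((w.map gA).prod, (w.map gB).prod) := by
    intro w
    induction w with
    | nil => rfl
    | cons x w ih => simp only [List.map_cons, List.prod_cons, ih]; rfl
  have hb := TCM11s.main (G := A × Cfsg.Spor.M11) (g := fun x => (gA x, gB x))
    (H := zpowers (gA .a * gA .b, gB .a * gB .b))
    (fun x => Prod.ext (hinvA x) (hinv x))
    (fun x y => Prod.ext (hpA x y) (hp x y))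
    (fun p h => by
      rw [hprod]
      exact Prod.ext (heA p h) (he p h))
    (by
      intro r hr
      simp only [TCM11s.subs, List.mem_cons, List.mem_nil_iff, or_false] at hr
      subst hr
      rw [hprod]
      simp only [List.map_cons, List.map_nil, List.prod_cons, List.prod_nil, mul_one]
      exact mem_zpowers _)
  set K : Subgroup (A × Cfsg.Spor.M11) := closure (Set.range fun x => (gA x, gB x)) with hK
  set Z : Subgroup (A × Cfsg.Spor.M11) := zpowers (gA .a * gA .b, gB .a * gB .b) with hZ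
  have h11 : (gA .a * gA .b, gB .a * gB .b) ^ 11 = 1 := by
    have h1 := heA ([.a, .b], 11) (by decide)
    have h2 := he ([.a, .b], 11) (by decide)
    simp only [List.map_cons, List.map_nil, List.prod_cons, List.prod_nil, mul_one] at h1 h2
    exact Prod.ext h1 h2
  have hZc : Nat.card Z ≤ 11 ∧ Nat.card Z ≠ 0 := by
    rw [hZ, Nat.card_zpowers]
    have hd : orderOf (gA .a * gA .b, gB .a * gB .b) ∣ 11 := orderOf_dvd_of_pow_eq_one h11
    have := Nat.le_of_dvd (by norm_num) hd
    exact ⟨this, fun h => by rw [h] at hd; norm_num at hd⟩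
  have hZK : Z ≤ K := by
    rw [hZ, zpowers_le]
    have ha : (gA .a, gB .a) ∈ K := subset_closure ⟨.a, rfl⟩
    have hb' : (gA .b, gB .b) ∈ K := subset_closure ⟨.b, rfl⟩
    exact K.mul_mem ha hb'
  have hfin : Nat.card K ≤ 7920 ∧ Nat.card K ≠ 0 := by
    have h := card_le_step hZK hb hZc
    exact ⟨h.1.trans (by norm_num), h.2⟩
  obtain ⟨e⟩ := H63.Sub.iso_of_bound gA gB gen (by rw [card_M11]; exact hfin) hne
  refine ⟨e.symm.isSimpleGroup, ?_⟩
  rw [← Nat.card_congr e.toEquiv, card_M11]

end H63.M11P
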