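import Cfsg.Agent.Lib.H63.ONNet
import Cfsg.Agent.Lib.H63.ONM_J
import Cfsg.Agent.Lib.H63.TCJ1s.Chk

set_option autoImplicit false
set_option linter.all false
set_option maxRecDepth 100000
set_option Elab.async false

/-! Elements of `ON` satisfying the relations of `TCJ1s` -/

namespace H63.ONW
open H35.TC H35.Net H35.ONMain

theorem ck_J : chkNet (2 ^ 17) nl_J = true := by decide +kernel
theorem ck'_J : chkNet (2 ^ 17) nl_J.reverse = true := by decide +kernel
theorem eq_J : chkEqW nl_J [.g, .b, .d, .c, .d, .c, .f, .a, .b, .e, .d, .g, .a, .c, .d, .b, .c, .d, .c, .a, .gi, .d, .e, .b, .a, .f, .c, .d, .c, .d, .b, .gi] 17 = true := by decide +kernel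
theorem inv_J : chkW (netV nl_J) 17 [.v, .vi] 1 0 17 = true := by decide +kernel
theorem rel_J_0 : chkW (netV nl_J) 17 [.v] 3 0 17 = true := by decide +kernel
theorem rel_J_1 : chkW (netV nl_J) 17 [.x .a, .v] 7 0 17 = true := by decide +kernel
theorem rel_J_2 : chkW (netV nl_J) 17 [.x .a, .v, .x .a, .v, .x .a, .vi, .x .a, .v, .x .a, .vi, .x .a, .v, .x .a, .vi, .x .a, .v, .x .a, .vi, .x .a, .v, .x .a, .vi, .x .a, .v, .x .a, .vi, .x .a, .v, .x .a, .v, .x .a, .vi, .x .a, .vi] 2 0 17 = true := by decide +kernel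
theorem rel_J_3 : chkW (netV nl_J) 17 [.x .a, .v, .x .a, .v, .x .a, .vi, .x .a, .v, .x .a, .vi, .x .a, .v, .x .a, .vi] 5 0 17 = true := by decide +kernel

/-- letters -/
def tl_J : TCJ1s.Lt → LV
  | .a => .x .a
  | .b => .v
  | .bi => .vi

/-- letters in `ON` -/
def g_J : TCJ1s.Lt → Cfsg.Spor.ON
  | .a => gP .a
  | .b => val [.g, .b, .d, .c, .d, .c, .f, .a, .b, .e, .d, .g, .a, .c, .d, .b, .c, .d, .c, .a, .gi, .d, .e, .b, .a, .f, .c, .d, .c, .d, .b, .gi]
  | .bi => (val [.g, .b, .d, .c, .d, .c, .f, .a, .b, .e, .d, .g, .a, .c, .d, .b, .c, .d, .c, .a, .gi, .d, .e, .b, .a, .f, .c, .d, .c, .d, .b, .gi])⁻¹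

theorem hinv_J : ∀ x, g_J (TCJ1s.inv x) = (g_J x)⁻¹ := by
  intro x
  cases x
  · exact hinvP .a
  · rfl
  · exact (inv_inv _).symm

theorem hp_J : ∀ x y, (g_J x * g_J y) ^ TCJ1s.mm x y = 1 := by
  intro x y
  cases x <;> cases y <;> first
    | exact pow_zero _
    | exact hpP .a .a

theorem he_J : ∀ p ∈ TCJ1s.extra, ((p.1.map g_J).prod) ^ p.2 = 1 := by
  obtain ⟨π, hbp, e1, e2, e3⟩ := exists_V ck_J ck'_J eq_J inv_J
  have h : ∀ x, φ (g_J x) = π (tl_J x) := by
    intro x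
    cases x
    · exact (e1 .a).symm
    · exact e2.symm
    · exact e3.symm
  intro p hp
  simp only [TCJ1s.extra, List.mem_cons, List.mem_nil_iff, or_false] at hp
  rcases hp with rfl | rfl | rfl | rfl | rfl | rfl
  · exact rel_V hbp h rel_J_0
  · exact rel_V hbp h rel_J_1
  · exact rel_V hbp h rel_J_2
  · exact rel_V hbp h rel_J_3
  · simp [g_J]
  · simp [g_J]

end H63.ONW
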