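import Cfsg.Agent.Lib.H63.ONNet
import Cfsg.Agent.Lib.H63.ONM_M
import Cfsg.Agent.Lib.H63.TCM11s.Chk

set_option autoImplicit false
set_option linter.all false
set_option maxRecDepth 100000
set_option Elab.async false

/-! Elements of `ON` satisfying the relations of `TCM11s` -/

namespace H63.ONW
open H35.TC H35.Net H35.ONMain

theorem ck_M : chkNet (2 ^ 17) nl_M = true := by decide +kernel
theorem ck'_M : chkNet (2 ^ 17) nl_M.reverse = true := by decide +kernel
theorem eq_M : chkEqW nl_M [.d, .f, .e, .g, .b, .c, .e, .d, .e, .g, .a, .g, .b, .c, .d, .e, .g, .e, .d, .c, .b, .gi, .a, .gi, .e, .d, .e, .c, .b, .gi, .e, .f, .d] 17 = true := by decide +kernel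
theorem inv_M : chkW (netV nl_M) 17 [.v, .vi] 1 0 17 = true := by decide +kernel
theorem rel_M_0 : chkW (netV nl_M) 17 [.v] 4 0 17 = true := by decide +kernel
theorem rel_M_1 : chkW (netV nl_M) 17 [.x .c, .v, .v] 6 0 17 = true := by decide +kernel
theorem rel_M_2 : chkW (netV nl_M) 17 [.x .c, .v, .x .c, .v, .x .c, .vi, .x .c, .v, .x .c, .v, .v, .x .c, .vi, .x .c, .v, .x .c, .vi, .x .c, .vi] 1 0 17 = true := by decide +kernel
theorem rel_M_3 : chkW (netV nl_M) 17 [.x .c, .v] 11 0 17 = true := by decide +kernel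

/-- letters -/
def tl_M : TCM11s.Lt → LV
  | .a => .x .c
  | .b => .v
  | .bi => .vi

/-- letters in `ON` -/
def g_M : TCM11s.Lt → Cfsg.Spor.ON
  | .a => gP .c
  | .b => val [.d, .f, .e, .g, .b, .c, .e, .d, .e, .g, .a, .g, .b, .c, .d, .e, .g, .e, .d, .c, .b, .gi, .a, .gi, .e, .d, .e, .c, .b, .gi, .e, .f, .d]
  | .bi => (val [.d, .f, .e, .g, .b, .c, .e, .d, .e, .g, .a, .g, .b, .c, .d, .e, .g, .e, .d, .c, .b, .gi, .a, .gi, .e, .d, .e, .c, .b, .gi, .e, .f, .d])⁻¹

theorem hinv_M : ∀ x, g_M (TCM11s.inv x) = (g_M x)⁻¹ := by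
  intro x
  cases x
  · exact hinvP .c
  · rfl
  · exact (inv_inv _).symm

theorem hp_M : ∀ x y, (g_M x * g_M y) ^ TCM11s.mm x y = 1 := by
  intro x y
  cases x <;> cases y <;> first
    | exact pow_zero _
    | exact hpP .c .c

theorem he_M : ∀ p ∈ TCM11s.extra, ((p.1.map g_M).prod) ^ p.2 = 1 := by
  obtain ⟨π, hbp, e1, e2, e3⟩ := exists_V ck_M ck'_M eq_M inv_M
  have h : ∀ x, φ (g_M x) = π (tl_M x) := by
    intro x
    cases x
    · exact (e1 .c).symm
    · exact e2.symm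
    · exact e3.symm
  intro p hp
  simp only [TCM11s.extra, List.mem_cons, List.mem_nil_iff, or_false] at hp
  rcases hp with rfl | rfl | rfl | rfl | rfl | rfl
  · exact rel_V hbp h rel_M_0
  · exact rel_V hbp h rel_M_1
  · exact rel_V hbp h rel_M_2
  · exact rel_V hbp h rel_M_3
  · simp [g_M]
  · simp [g_M]

end H63.ONW
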