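import Cfsg.Agent.Lib.H63.ONWord

/-!
# Networks for composite elements of `ON`
-/

set_option autoImplicit false
set_option linter.all false
set_option maxRecDepth 100000

namespace H63.ONW
open H35.TC H35.Net H35.ONMain

/-- letters of `ON` and an extra letter with its inverse -/
inductive LV
  | x (l : LA)
  | v
  | vi

/-- network of the letters -/
noncomputable def netV (nl : List (ℕ × ℕ)) : LV → ℕ → ℕ
  | .x l => H35.NON.net l
  | .v => runNet nl
  | .vi => runNet nl.reverse

/-- the network `nl` computes the word `w` -/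
noncomputable def chkEqW (nl : List (ℕ × ℕ)) (w : List LA) (k : ℕ) : Bool :=
  Nat.rec (motive := fun _ => Bool) true
    (fun r ih => band (Nat.beq (runNet nl (ipl r 17)) (appF H35.NON.net w (ipl r 17))) ih) k

theorem chkEqW_spec {nl : List (ℕ × ℕ)} {w : List LA} : ∀ {k : ℕ}, chkEqW nl w k = true →
    ∀ r, r < k → runNet nl (ipl r 17) = app H35.NON.net w (ipl r 17) := by
  intro k
  induction k with
  | zero => intro _ r hr; omega
  | succ k ih =>
    intro h r hr
    have h1 : band (Nat.beq (runNet nl (ipl k 17)) (appF H35.NON.net w (ipl k 17))) (chkEqW nl w k) = true := h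
    obtain ⟨h2, h3⟩ := band_eq_true.1 h1
    rcases Nat.lt_succ_iff_lt_or_eq.1 hr with h4 | rfl
    · exact ih h3 r h4
    · rw [← appF_eq]; exact eqOfBeq h2

theorem exists_V {nl : List (ℕ × ℕ)} (hc : chkNet (2 ^ 17) nl = true) (hc' : chkNet (2 ^ 17) nl.reverse = true)
    {w : List LA} (h1 : chkEqW nl w 17 = true) (h2 : chkW (netV nl) 17 [.v, .vi] 1 0 17 = true) :
    ∃ π : LV → Equiv.Perm ℕ, (∀ x, BP (2 ^ 17) (netV nl x) (π x)) ∧ (∀ l, π (.x l) = φ (gP l)) ∧
      π .v = φ (val w) ∧ π .vi = φ (val w)⁻¹ := by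
  obtain ⟨πv, hv⟩ := runNet_BP hc
  obtain ⟨πi, hi⟩ := runNet_BP hc'
  let π : LV → Equiv.Perm ℕ := fun x => match x with
    | .x l => H35.NON.π l
    | .v => πv
    | .vi => πi
  have hbp : ∀ x, BP (2 ^ 17) (netV nl x) (π x) := by
    intro x
    cases x with
    | x l => exact H35.NON.hbp l
    | v => exact hv
    | vi => exact hi
  have e1 : πv = φ (val w) := by
    rw [val, map_word hφ]
    exact eq_of_planes hv (app_BP H35.NON.hbp w) (fun r hr => chkEqW_spec h1 r hr)
  refine ⟨π, hbp, fun l => (hφ l).symm, e1, ?_⟩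
  have h3 := pow_eq_one_of_chk hbp h2
  simp only [List.map_cons, List.map_nil, List.prod_cons, List.prod_nil, mul_one, pow_one] at h3
  change πv * πi = 1 at h3
  change πi = _
  rw [map_inv, ← e1]
  exact eq_inv_of_mul_eq_one_right h3

theorem rel_V {nl : List (ℕ × ℕ)} {π : LV → Equiv.Perm ℕ} (hbp : ∀ x, BP (2 ^ 17) (netV nl x) (π x))
    {L : Type} {tl : L → LV} {gA : L → Cfsg.Spor.ON} (h : ∀ x, φ (gA x) = π (tl x)) {w : List L} {n : ℕ}
    (hw : chkW (netV nl) 17 (w.map tl) n 0 17 = true) : ((w.map gA).prod) ^ n = 1 := by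
  apply card_inj.2
  rw [map_pow, map_one, map_list_prod, List.map_map]
  have h1 := pow_eq_one_of_chk hbp hw
  rw [List.map_map] at h1
  have e : (φ ∘ gA : L → Equiv.Perm ℕ) = π ∘ tl := funext h
  rw [e]
  exact h1

end H63.ONW
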