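import Cfsg.Prelude.Def_Sporadic
import Cfsg.Agent.Lib.H63.OutTree
import Cfsg.Agent.Lib.H63.J1Pres
import Cfsg.Agent.Lib.H63.M11Pres
import Cfsg.Agent.Lib.H63.ONJ
import Cfsg.Agent.Lib.H63.ONMm

/-!
# `ON` as a permutation group of degree 122760, with subgroups `J₁` and `M₁₁`
-/

set_option autoImplicit false
set_option linter.all false
set_option maxRecDepth 100000

namespace H63.ONW
open H35.TC H35.Net H35.ONMain

theorem exJ1 : ∃ K : Subgroup Cfsg.Spor.ON, Cfsg.IsJ1 K :=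
  ⟨_, H63.J1P.isJ1 g_J hinv_J hp_J he_J ⟨.a, a_ne⟩⟩

theorem c_ne : gP .c ≠ 1 := by
  intro h
  have h1 : H35.NON.π .c = 1 := by rw [← hφ, h, map_one]
  have h2 := H35.NON.hbp .c
  rw [h1] at h2
  have h3 : H35.NON.net .c 2 = 2 := by
    apply Nat.eq_of_testBit_eq
    intro i
    rw [h2.bit]; rfl
  have h4 : Nat.beq (H35.NON.net .c 2) 2 = false := by decide +kernel
  rw [h3] at h4
  exact absurd h4 (by decide)

theorem exM11 : ∃ K : Subgroup Cfsg.Spor.ON, Cfsg.IsM11 K :=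
  ⟨_, H63.M11P.isM11 g_M hinv_M hp_M he_M ⟨.a, c_ne⟩⟩

theorem transfer {G H : Type} [Group G] [Group H] (e : G ≃* H) {K : Subgroup G} :
    Nonempty (K ≃* K.map e.toMonoidHom) := ⟨e.subgroupMap K⟩

theorem main : ∃ H : Subgroup (Equiv.Perm (Fin 122760)), Cfsg.IsON H ∧
    MulAction.IsPretransitive H (Fin 122760) ∧
    Nat.card (MulAction.stabilizer H (0 : Fin 122760)) = 3753792 ∧
    (∃ K : Subgroup H, Cfsg.IsJ1 K) ∧ (∃ K : Subgroup H, Cfsg.IsM11 K) := by
  obtain ⟨ψ, hψ, hv⟩ := H63.OT.exists_psi φ card_inj.2 122760 (pres_all hφ genP H35.NON.pres)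
    (fix_all hφ genP H35.NON.fix_hi)
  have e : Cfsg.Spor.ON ≃* ψ.range := MonoidHom.ofInjective hψ
  have hs : IsSimpleGroup Cfsg.Spor.ON := simple
  have hcard : Nat.card ψ.range = 460815505920 := by
    rw [← Nat.card_congr e.toEquiv]; exact card_inj.1
  have hfin : Finite ψ.range := Nat.finite_of_card_ne_zero (by rw [hcard]; norm_num)
  have htr' : MulAction.IsPretransitive ψ.range (Fin 122760) := by
    have key : ∀ y : Fin 122760, ∃ g : ψ.range, g • (0 : Fin 122760) = y := by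
      intro y
      obtain ⟨g, hg⟩ := htr y y.2
      refine ⟨⟨ψ g, g, rfl⟩, Fin.ext ?_⟩
      change ((ψ g) (0 : Fin 122760) : ℕ) = y
      rw [hv]; exact hg
    refine ⟨fun x y => ?_⟩
    obtain ⟨g, hg⟩ := key x
    obtain ⟨h, hh⟩ := key y
    refine ⟨h * g⁻¹, ?_⟩
    rw [mul_smul, ← hg, inv_smul_smul, hh]
  refine ⟨ψ.range, ⟨e.symm.isSimpleGroup, hcard⟩, htr', ?_, ?_, ?_⟩
  · have h1 := MulAction.index_stabilizer_of_transitive ψ.range (0 : Fin 122760)
    have h2 := (MulAction.stabilizer ψ.range (0 : Fin 122760)).card_mul_index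
    rw [h1, hcard, Nat.card_fin] at h2
    omega
  · obtain ⟨K, hK⟩ := exJ1
    obtain ⟨f⟩ := transfer e (K := K)
    have := hK.1
    exact ⟨_, f.symm.isSimpleGroup, by rw [← Nat.card_congr f.toEquiv]; exact hK.2⟩
  · obtain ⟨K, hK⟩ := exM11
    obtain ⟨f⟩ := transfer e (K := K)
    have := hK.1
    exact ⟨_, f.symm.isSimpleGroup, by rw [← Nat.card_congr f.toEquiv]; exact hK.2⟩

end H63.ONW
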